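import Cfsg.Agent.H9.GolayOctads

/-!
# Binary `[24, 12]` codes with minimum weight at least 8

Coset leaders (sextets), the S(5, 8, 24) of minimum words, generation by weight-8 words.
-/

set_option autoImplicit false

namespace Cfsg.Agent.H9

open Finset

variable {α : Type*} [Fintype α] [DecidableEq α]

theorem sub_eq_add_zmod2 (u v : α → ZMod 2) : u - v = u + v := by
  funext a; show u a - v a = u a + v a; generalize u a = x; generalize v a = y; revert x y; decide

/-- Weight of a sum of two binary words. -/
theorem hammingNorm_add_two_inter (u v : α → ZMod 2) :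
    hammingNorm (u + v) + 2 * (support₂ u ∩ support₂ v).card = hammingNorm u + hammingNorm v := by
  conv_lhs => rw [← indWord_support₂ u, ← indWord_support₂ v, indWord_add, hammingNorm_indWord,
    Finset.card_union_of_disjoint disjoint_sdiff_sdiff, support₂_indWord, support₂_indWord]
  rw [← card_support₂ u, ← card_support₂ v]
  have h1 := Finset.card_sdiff_add_card_inter (support₂ u) (support₂ v)
  have h2 := Finset.card_sdiff_add_card_inter (support₂ v) (support₂ u)
  rw [Finset.inter_comm (support₂ v)] at h2
  omega

theorem natCast_hammingNorm (v : α → ZMod 2) : (hammingNorm v : ZMod 2) = ∑ i, v i := by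
  rw [hammingNorm, Finset.card_filter, Nat.cast_sum]
  refine Finset.sum_congr rfl fun i _ => ?_
  generalize v i = x; revert x; decide

/-- A self-orthogonal word has even weight. -/
theorem two_dvd_hammingNorm_of_self_dot {v : α → ZMod 2} (h : ∑ i, v i * v i = 0) :
    2 ∣ hammingNorm v := by
  rw [← ZMod.natCast_eq_zero_iff, natCast_hammingNorm, ← h]
  refine Finset.sum_congr rfl fun i _ => ?_
  generalize v i = x; revert x; decide

theorem card_weight_eq (k : ℕ) :
    (Finset.univ.filter fun u : α → ZMod 2 => hammingNorm u = k).card =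
      (Fintype.card α).choose k := by
  rw [← Finset.card_univ (α := α), ← Finset.card_powersetCard]
  refine Finset.card_bij (fun u _ => support₂ u) ?_ (fun u _ v _ h => support₂_injective h) ?_
  · intro u hu
    rw [Finset.mem_filter] at hu
    exact Finset.mem_powersetCard.2 ⟨Finset.subset_univ _, by rw [card_support₂, hu.2]⟩
  · intro s hs
    rw [Finset.mem_powersetCard] at hs
    exact ⟨indWord s, by simp [hammingNorm_indWord, hs.2], support₂_indWord s⟩

section Cosets

variable (C : Submodule (ZMod 2) (α → ZMod 2)) (hα : Fintype.card α = 24)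
  (hdim : Module.finrank (ZMod 2) C = 12) (hmin : ∀ w ∈ C, w ≠ 0 → 8 ≤ hammingNorm w)

include hmin in
/-- Two words of small weight in one coset. -/
theorem coset_small_words {u v : α → ZMod 2} (hu : hammingNorm u ≤ 4) (hv : hammingNorm v ≤ 4)
    (h : u + v ∈ C) (hne : u ≠ v) :
    hammingNorm u = 4 ∧ hammingNorm v = 4 ∧ Disjoint (support₂ u) (support₂ v) := by
  have h0 : u + v ≠ 0 := by rwa [← sub_eq_add_zmod2, sub_ne_zero]
  have h8 := hmin _ h h0
  have := hammingNorm_add_two_inter u v
  refine ⟨by omega, by omega, Finset.disjoint_iff_inter_eq_empty.2 (Finset.card_eq_zero.1 ?_)⟩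
  omega

/-- The words of weight at most 4 in the coset of `w`. -/
def leaders (w : α → ZMod 2) : Set (α → ZMod 2) := {u | u + w ∈ C ∧ hammingNorm u ≤ 4}

include hdim hα in
theorem natCard_quotient_code : Nat.card ((α → ZMod 2) ⧸ C) = 4096 := by
  rw [Module.natCard_eq_pow_finrank (K := ZMod 2), Nat.card_zmod]
  have := Submodule.finrank_quotient_add_finrank C
  rw [hdim, Module.finrank_fintype_fun_eq_card, hα] at this
  rw [show Module.finrank (ZMod 2) ((α → ZMod 2) ⧸ C) = 12 by omega]
  norm_num

include hα hdim hmin in
/-- Every coset has a unique leader of weight at most 3, or six pairwise disjoint leaders of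
weight 4. -/
theorem leaders_dichotomy (w : α → ZMod 2) :
    (∃ u, leaders C w = {u} ∧ hammingNorm u ≤ 3) ∨
    ((leaders C w).ncard = 6 ∧ ∀ u ∈ leaders C w, hammingNorm u = 4 ∧
      ∀ u' ∈ leaders C w, u ≠ u' → Disjoint (support₂ u) (support₂ u')) := by
  classical
  let f : (α → ZMod 2) → (α → ZMod 2) ⧸ C := Submodule.Quotient.mk
  have hf : ∀ u v, f u = f v ↔ u + v ∈ C := fun u v => by
    rw [← sub_eq_add_zmod2]; exact Submodule.Quotient.eq C
  have hpair : ∀ u v, hammingNorm u ≤ 4 → hammingNorm v ≤ 4 → f u = f v → u ≠ v →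
      hammingNorm u = 4 ∧ hammingNorm v = 4 ∧ Disjoint (support₂ u) (support₂ v) :=
    fun u v hu hv h hne => coset_small_words C hmin hu hv ((hf u v).1 h) hne
  set L : Finset (α → ZMod 2) := Finset.univ.filter fun u => hammingNorm u ≤ 3 with hL
  set M : Finset (α → ZMod 2) := Finset.univ.filter fun u => hammingNorm u = 4 with hM
  have hLcard : L.card = 2325 := by
    have hd : L = (Finset.range 4).biUnion
        fun k => Finset.univ.filter fun u : α → ZMod 2 => hammingNorm u = k := by
      ext u; simp [hL]; omega
    rw [hd, Finset.card_biUnion]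
    · rw [Finset.sum_congr rfl (fun k _ => card_weight_eq k), hα]; decide
    · intro a _ b _ hab
      refine Finset.disjoint_filter.2 fun u _ ha hb => hab (ha.symm.trans hb)
  have hMcard : M.card = 10626 := by rw [hM, card_weight_eq, hα]; decide
  have hinjL : Set.InjOn f L := by
    intro u hu v hv h
    simp only [hL, Finset.coe_filter, Finset.mem_univ, true_and, Set.mem_setOf_eq] at hu hv
    by_contra hne
    have := (hpair u v (by omega) (by omega) h hne).1
    omega
  have hfib : ∀ q, (M.filter fun u => f u = q).card ≤ 6 := by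
    intro q
    set S := M.filter fun u => f u = q
    have hd : (S : Set (α → ZMod 2)).PairwiseDisjoint (fun u => support₂ u) := by
      intro u hu v hv hne
      simp only [S, hM, Finset.coe_filter, Finset.mem_filter, Finset.mem_univ, true_and,
        Set.mem_setOf_eq] at hu hv
      exact (hpair u v hu.1.le hv.1.le (hu.2.trans hv.2.symm) hne).2.2
    have h1 := Finset.card_le_univ (S.biUnion fun u => support₂ u)
    rw [Finset.card_biUnion hd, Finset.sum_congr rfl (fun u hu => by
      rw [card_support₂, (Finset.mem_filter.1 (Finset.mem_filter.1 hu).1).2]), Finset.sum_const,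
      hα, smul_eq_mul] at h1
    omega
  have hsep : Disjoint (L.image f) (M.image f) := by
    rw [Finset.disjoint_left]
    intro q hq hq'
    rw [Finset.mem_image] at hq hq'
    obtain ⟨u, hu, rfl⟩ := hq
    obtain ⟨v, hv, hvu⟩ := hq'
    simp only [hL, hM, Finset.mem_filter, Finset.mem_univ, true_and] at hu hv
    have hne : v ≠ u := fun h => by subst h; omega
    have := (hpair v u hv.le (by omega) hvu hne).2.1
    omega
  haveI : Fintype ((α → ZMod 2) ⧸ C) := Fintype.ofFinite _
  have hQ : Fintype.card ((α → ZMod 2) ⧸ C) = 4096 := by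
    rw [← Nat.card_eq_fintype_card]; exact natCard_quotient_code C hα hdim
  have himL : (L.image f).card = 2325 := by rw [Finset.card_image_of_injOn hinjL, hLcard]
  have himM : (M.image f).card ≤ 1771 := by
    have := Finset.card_le_univ (L.image f ∪ M.image f)
    rw [Finset.card_union_of_disjoint hsep, himL, hQ] at this
    omega
  have hsum : M.card = ∑ q ∈ M.image f, (M.filter fun u => f u = q).card :=
    Finset.card_eq_sum_card_image f M
  have hle : ∑ q ∈ M.image f, (M.filter fun u => f u = q).card ≤ (M.image f).card * 6 := by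
    rw [← smul_eq_mul, ← Finset.sum_const]; exact Finset.sum_le_sum fun q _ => hfib q
  have himM' : (M.image f).card = 1771 := by omega
  have hsix : ∀ q ∈ M.image f, (M.filter fun u => f u = q).card = 6 := by
    have h2 : ∑ q ∈ M.image f, (M.filter fun u => f u = q).card = ∑ q ∈ M.image f, 6 := by
      rw [Finset.sum_const, smul_eq_mul]; omega
    exact (Finset.sum_eq_sum_iff_of_le fun q _ => hfib q).1 h2
  have hcover : L.image f ∪ M.image f = Finset.univ := by
    apply Finset.eq_univ_of_card
    rw [Finset.card_union_of_disjoint hsep, himL, himM', hQ]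
  have hw : f w ∈ L.image f ∪ M.image f := hcover ▸ Finset.mem_univ _
  have hlead : ∀ u, u ∈ leaders C w ↔ f u = f w ∧ hammingNorm u ≤ 4 := fun u => by
    rw [hf]; rfl
  rcases Finset.mem_union.1 hw with h | h
  · rw [Finset.mem_image] at h
    obtain ⟨u, hu, huw⟩ := h
    simp only [hL, Finset.mem_filter, Finset.mem_univ, true_and] at hu
    refine Or.inl ⟨u, ?_, hu⟩
    ext v
    rw [hlead, Set.mem_singleton_iff]
    refine ⟨fun hv => ?_, fun hv => hv ▸ ⟨huw, by omega⟩⟩
    by_contra hne
    have := (hpair v u hv.2 (by omega) (hv.1.trans huw.symm) hne).2.1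
    omega
  · refine Or.inr ?_
    have hfour : ∀ v ∈ leaders C w, hammingNorm v = 4 := by
      intro v hv
      rw [hlead] at hv
      by_contra h4
      have hvL : f v ∈ L.image f := Finset.mem_image_of_mem _ (by simp [hL]; omega)
      rw [hv.1] at hvL
      exact Finset.disjoint_left.1 hsep hvL h
    have hset : leaders C w = ↑(M.filter fun u => f u = f w) := by
      ext v
      simp only [hM, Finset.coe_filter, Finset.mem_filter, Finset.mem_univ, true_and,
        Set.mem_setOf_eq]
      exact ⟨fun hv => ⟨hfour v hv, ((hlead v).1 hv).1⟩, fun hv => (hlead v).2 ⟨hv.2, hv.1.le⟩⟩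
    refine ⟨by rw [hset, Set.ncard_coe_finset]; exact hsix _ h, fun u hu => ⟨hfour u hu, ?_⟩⟩
    intro u' hu' hne
    rw [hlead] at hu hu'
    exact (hpair u u' hu.2 hu'.2 (hu.1.trans hu'.1.symm) hne).2.2

include hα hdim hmin in
theorem exists_leader (w : α → ZMod 2) : ∃ u, u + w ∈ C ∧ hammingNorm u ≤ 4 := by
  rcases leaders_dichotomy C hα hdim hmin w with ⟨u, hu, _⟩ | ⟨hn, _⟩
  · exact ⟨u, show u ∈ leaders C w by simp [hu]⟩
  · exact Set.nonempty_of_ncard_ne_zero (s := leaders C w) (by omega)

variable (horth : ∀ v ∈ C, ∀ w ∈ C, ∑ i, v i * w i = 0)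

include hα hdim hmin horth in
/-- Every 5-set lies in the support of exactly one weight-8 word. -/
theorem exists_unique_eight {T : Finset α} (hT : T.card = 5) :
    ∃ c ∈ C, hammingNorm c = 8 ∧ T ⊆ support₂ c := by
  obtain ⟨u, hu, hu4⟩ := exists_leader C hα hdim hmin (indWord T)
  have h0 : u + indWord T ≠ 0 := by
    rw [← sub_eq_add_zmod2, sub_ne_zero]
    intro h
    rw [h, hammingNorm_indWord] at hu4
    omega
  have h8 := hmin _ hu h0
  have heven := two_dvd_hammingNorm_of_self_dot (horth _ hu _ hu)
  have hsum := hammingNorm_add_two_inter u (indWord T)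
  rw [hammingNorm_indWord, support₂_indWord] at hsum
  refine ⟨_, hu, by omega, fun a ha => ?_⟩
  have hk : support₂ u ∩ T = ∅ := Finset.card_eq_zero.1 (by omega)
  have hua : u a = 0 := by
    by_contra h
    have : a ∈ support₂ u ∩ T := Finset.mem_inter.2 ⟨by simp [support₂, h], ha⟩
    rw [hk] at this
    exact absurd this (Finset.notMem_empty a)
  show a ∈ Finset.univ.filter fun b => (u + indWord T) b ≠ 0
  refine Finset.mem_filter.2 ⟨Finset.mem_univ a, ?_⟩
  rw [Pi.add_apply, hua, indWord, if_pos ha]
  decide

include hα hdim hmin horth in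
/-- The weight-8 words form an S(5, 8, 24). -/
theorem isSteinerSystem_eight :
    IsSteinerSystem 5 8 (wordsOfWeight (C : Set (α → ZMod 2)) 8) := by
  refine ⟨fun b hb => hb.2, fun T hT => ?_⟩
  obtain ⟨c, hc, hc8, hTc⟩ := exists_unique_eight C hα hdim hmin horth hT
  refine ⟨support₂ c, ⟨mem_wordsOfWeight.2 ⟨c, hc, hc8, rfl⟩, hTc⟩, ?_⟩
  rintro b ⟨hb, hTb⟩
  obtain ⟨d, hd, hd8, rfl⟩ := mem_wordsOfWeight.1 hb
  by_contra hne
  have h0 : d + c ≠ 0 := by
    rw [← sub_eq_add_zmod2, sub_ne_zero]; exact fun h => hne (by rw [h])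
  have h8 := hmin _ (C.add_mem hd hc) h0
  have hsum := hammingNorm_add_two_inter d c
  have := Finset.card_le_card (Finset.subset_inter hTb hTc)
  omega

include hα hdim hmin horth in
/-- The code is spanned by its weight-8 words. -/
theorem span_eight_eq : Submodule.span (ZMod 2) {w | w ∈ C ∧ hammingNorm w = 8} = C := by
  refine le_antisymm (Submodule.span_le.2 fun w hw => hw.1) ?_
  intro c
  induction hk : hammingNorm c using Nat.strong_induction_on generalizing c with
  | _ k ih =>
    intro hc
    by_cases h0 : c = 0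
    · rw [h0]; exact Submodule.zero_mem _
    have h8 := hmin c hc h0
    obtain ⟨T, hTs, hT⟩ := Finset.exists_subset_card_eq (s := support₂ c) (n := 5)
      (by rw [card_support₂]; omega)
    obtain ⟨o, ho, ho8, hTo⟩ := exists_unique_eight C hα hdim hmin horth hT
    have hsum := hammingNorm_add_two_inter c o
    have := Finset.card_le_card (Finset.subset_inter hTs hTo)
    have hmem := ih (hammingNorm (c + o)) (by omega) (c := c + o) rfl (C.add_mem hc ho)
    have := Submodule.sub_mem _ hmem (Submodule.subset_span ⟨ho, ho8⟩)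
    simpa using this

include hα hdim hmin horth in
/-- The code is doubly even. -/
theorem four_dvd_weight {w : α → ZMod 2} (hw : w ∈ C) : 4 ∣ hammingNorm w := by
  have hw' : w ∈ Submodule.span (ZMod 2) {v | v ∈ C ∧ hammingNorm v = 8} := by
    rw [span_eight_eq C hα hdim hmin horth]; exact hw
  induction hw' using Submodule.span_induction with
  | mem x hx => rw [hx.2]; norm_num
  | zero => simp
  | smul c x hx ih =>
    rcases (show ∀ a : ZMod 2, a = 0 ∨ a = 1 by decide) c with rfl | rfl
    · simp
    · simpa using ih (by simpa using hw)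
  | add x y hx hy ihx ihy =>
    have hxC : x ∈ C := by rw [← span_eight_eq C hα hdim hmin horth]; exact hx
    have hyC : y ∈ C := by rw [← span_eight_eq C hα hdim hmin horth]; exact hy
    have h1 := ihx hxC
    have h2 := ihy hyC
    have hdot : (((support₂ x ∩ support₂ y).card : ℕ) : ZMod 2) = 0 := by
      rw [← horth x hxC y hyC, ← hammingNorm_indWord, natCast_hammingNorm]
      refine Finset.sum_congr rfl fun i _ => ?_
      by_cases hxi : x i = 0 <;> by_cases hyi : y i = 0 <;>
        simp_all [indWord, support₂, zmod2_ne_zero_iff]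
    rw [ZMod.natCast_eq_zero_iff] at hdot
    have hsum := hammingNorm_add_two_inter x y
    omega

end Cosets

end Cfsg.Agent.H9
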