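import Mathlib

/-!
# Modules over the field of four elements from a root of `X² + X + 1`
-/

set_option autoImplicit false

namespace Cfsg.Agent.H9.FieldFour

/-- The field with four elements. -/
abbrev F4 : Type := GaloisField 2 2

noncomputable instance : Fintype F4 := Fintype.ofFinite _

theorem card_F4 : Fintype.card F4 = 4 := by
  rw [← Nat.card_eq_fintype_card, GaloisField.card 2 2 two_ne_zero]; norm_num

theorem exists_omega : ∃ w : F4, w ^ 2 + w + 1 = 0 := by
  classical
  obtain ⟨w, -, hw⟩ := Finset.exists_mem_notMem_of_card_lt_card (s := ({0, 1} : Finset F4))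
    (t := Finset.univ) (lt_of_le_of_lt Finset.card_le_two (by rw [Finset.card_univ, card_F4]; norm_num))
  simp only [Finset.mem_insert, Finset.mem_singleton, not_or] at hw
  refine ⟨w, ?_⟩
  have h : w ^ 4 = w := by
    have := FiniteField.pow_card w
    rwa [card_F4] at this
  have h3 : (w - 1) * (w ^ 2 + w + 1) = 0 := by
    have : w ^ 3 = 1 := mul_left_cancel₀ hw.1 (by rw [mul_one, ← pow_succ', h])
    linear_combination this
  exact (mul_eq_zero.1 h3).resolve_left (sub_ne_zero.2 hw.2)

/-- A root of `X² + X + 1`. -/
noncomputable def om : F4 := exists_omega.choose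

theorem om_eq : om ^ 2 + om + 1 = 0 := exists_omega.choose_spec

theorem two_eq_zero : (2 : F4) = 0 := by
  have : ((2 : ℕ) : F4) = 0 := CharP.cast_eq_zero F4 2
  simpa using this

theorem add_self (c : F4) : c + c = 0 := by linear_combination c * two_eq_zero

theorem om_sq : om ^ 2 = om + 1 := by linear_combination om_eq - (om + 1) * two_eq_zero

theorem om_ne_zero : om ≠ 0 := fun h => by simpa [h] using om_eq

theorem om_ne_one : om ≠ 1 := fun h => by
  have := om_eq
  rw [h] at this
  exact one_ne_zero (by linear_combination this - two_eq_zero : (1 : F4) = 0)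

theorem F4_cases (c : F4) : c = 0 ∨ c = 1 ∨ c = om ∨ c = om + 1 := by
  classical
  by_contra h
  simp only [not_or] at h
  have h1 : om + 1 ≠ 0 := fun h' => om_ne_one (by linear_combination h' - two_eq_zero)
  have h2 : om + 1 ≠ 1 := fun h' => om_ne_zero (by linear_combination h')
  have h3 : om + 1 ≠ om := fun h' => one_ne_zero (α := F4) (by linear_combination h')
  have hle := Finset.card_le_univ ({0, 1, om, om + 1, c} : Finset F4)
  rw [card_F4, Finset.card_insert_of_notMem (by simp [om_ne_zero.symm, h1.symm, Ne.symm h.1]),
    Finset.card_insert_of_notMem (by simp [om_ne_one.symm, h2.symm, Ne.symm h.2.1]),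
    Finset.card_insert_of_notMem (by simp [h3.symm, Ne.symm h.2.2.1]),
    Finset.card_pair (Ne.symm h.2.2.2)] at hle
  omega

/-- Conjugation in the field of four elements. -/
theorem sq_add (a b : F4) : (a + b) ^ 2 = a ^ 2 + b ^ 2 := by
  linear_combination a * b * two_eq_zero

/-- Coordinates with respect to `1, om`. -/
theorem coords_unique {a b a' b' : ZMod 2}
    (h : (ZMod.castHom dvd_rfl F4 a) + om * ZMod.castHom dvd_rfl F4 b =
      ZMod.castHom dvd_rfl F4 a' + om * ZMod.castHom dvd_rfl F4 b') : a = a' ∧ b = b' := by
  have hc : ∀ c : ZMod 2, c = 0 ∨ c = 1 := by decide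
  rcases hc a with rfl | rfl <;> rcases hc b with rfl | rfl <;> rcases hc a' with rfl | rfl <;>
    rcases hc b' with rfl | rfl <;>
    simp only [map_zero, map_one, mul_zero, mul_one, add_zero, zero_add] at h <;>
    first
      | exact ⟨rfl, rfl⟩
      | (exfalso; exact one_ne_zero (α := F4) (by linear_combination h))
      | (exfalso; exact one_ne_zero (α := F4) (by linear_combination -h))
      | (exfalso; exact om_ne_zero (by linear_combination h))
      | (exfalso; exact om_ne_zero (by linear_combination -h))
      | (exfalso; exact om_ne_one (by linear_combination h))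
      | (exfalso; exact om_ne_one (by linear_combination -h))
      | (exfalso; exact om_ne_one (by linear_combination h - two_eq_zero))
      | (exfalso; exact om_ne_one (by linear_combination -h - two_eq_zero))

variable {V : Type*} [AddCommGroup V]

/-- A root of `X² + X + 1` in the endomorphisms defines the scalars. -/
noncomputable def scalarHom (J : AddMonoid.End V) (hJ : J * J + J + 1 = 0) (h2 : ∀ v : V, v + v = 0) :
    F4 →+* AddMonoid.End V :=
  haveI hz : ∀ f : AddMonoid.End V, f + f = 0 := fun f => AddMonoidHom.ext fun v => h2 (f v)
  haveI h11 : (1 : F4) + 1 = 0 := add_self 1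
  haveI hJ2 : J * J = J + 1 := by
    rw [add_assoc] at hJ
    exact (add_eq_zero_iff_eq_neg.1 hJ).trans (neg_eq_of_add_eq_zero_left (hz _))
  open Classical in
  let f : F4 → AddMonoid.End V := fun c =>
    if c = 0 then 0 else if c = 1 then 1 else if c = om then J else J + 1
  haveI f0 : f 0 = 0 := if_pos rfl
  haveI f1 : f 1 = 1 := (if_neg one_ne_zero).trans (if_pos rfl)
  haveI fo : f om = J := (if_neg om_ne_zero).trans ((if_neg om_ne_one).trans (if_pos rfl))
  haveI fo1 : f (om + 1) = J + 1 :=
    (if_neg fun h' => om_ne_one (by linear_combination h' - two_eq_zero)).trans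
      ((if_neg fun h' => om_ne_zero (by linear_combination h')).trans
        (if_neg fun h' => one_ne_zero (α := F4) (by linear_combination h')))
  { toFun := f
    map_one' := f1
    map_zero' := f0
    map_mul' := fun a b => by
      have e1 : om * om = om + 1 := by rw [← pow_two, om_sq]
      have e2 : om * (om + 1) = 1 := by linear_combination e1 + om * two_eq_zero
      have e3 : (om + 1) * om = 1 := by rw [mul_comm, e2]
      have e4 : (om + 1) * (om + 1) = om := by linear_combination e1 + (om + 1) * two_eq_zero
      rcases F4_cases a with rfl | rfl | rfl | rfl <;> rcases F4_cases b with rfl | rfl | rfl | rfl <;>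
        simp only [zero_mul, mul_zero, one_mul, mul_one, e1, e2, e3, e4, f0, f1, fo, fo1] <;>
        simp only [hJ2, mul_add, add_mul, one_mul, mul_one] <;>
        first
          | rfl
          | (rw [add_comm J 1, add_assoc, hz, add_zero])
          | (calc J = J + (J + J) + ((1 : AddMonoid.End V) + 1) := by rw [hz, hz, add_zero, add_zero]
              _ = _ := by abel)
          | (calc (1 : AddMonoid.End V) = 1 + (J + J) := by rw [hz, add_zero]
              _ = _ := by abel)
    map_add' := fun a b => by
      have e1 : om + (om + 1) = 1 := by rw [← add_assoc, add_self, zero_add]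
      have e2 : (om + 1) + om = 1 := by rw [add_comm, e1]
      have e3 : 1 + (om + 1) = om := by rw [add_left_comm, h11, add_zero]
      have e4 : (om + 1) + 1 = om := by rw [add_assoc, h11, add_zero]
      have e5 : 1 + om = om + 1 := add_comm _ _
      have g1 : J + (J + 1) = 1 := by rw [← add_assoc, hz, zero_add]
      have g3 : 1 + (J + 1) = J := by rw [add_left_comm, hz, add_zero]
      rcases F4_cases a with rfl | rfl | rfl | rfl <;> rcases F4_cases b with rfl | rfl | rfl | rfl <;>
        simp only [zero_add, add_zero, add_self, e1, e2, e3, e4, e5, f0, f1, fo, fo1, hz] <;>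
        first
          | rfl
          | exact g1.symm
          | exact g3.symm
          | (rw [add_comm, g1])
          | (rw [add_comm, g3])
          | exact add_comm _ _ }

end Cfsg.Agent.H9.FieldFour
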