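import Cfsg.Agent.H9.DistanceEight

/-!
# The punctured code of length 23
-/

set_option autoImplicit false

namespace Cfsg.Agent.H9

open Finset

/-- Delete the coordinate of the extra point. -/
def puncture (w : GolayPt → ZMod 2) : ZMod 23 → ZMod 2 := fun x => w (some x)

/-- The punctured code. -/
def code23 : Finset (ZMod 23 → ZMod 2) := codeFinset.image puncture

theorem mem_code23 (u : ZMod 23 → ZMod 2) :
    u ∈ code23 ↔ ∃ w ∈ golayCode, ∀ x : ZMod 23, u x = w (some x) := by
  simp [code23, mem_codeFinset, puncture, funext_iff, eq_comm]

theorem hammingNorm_eq_sum {β : Type*} [Fintype β] (w : β → ZMod 2) :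
    hammingNorm w = ∑ i, (w i).val := by
  rw [hammingNorm, Finset.card_filter]
  refine Finset.sum_congr rfl fun i _ => ?_
  generalize w i = x
  revert x
  decide

theorem hammingNorm_eq_puncture_add (w : GolayPt → ZMod 2) :
    hammingNorm w = hammingNorm (puncture w) + (w none).val := by
  rw [hammingNorm_eq_sum, hammingNorm_eq_sum, Fintype.sum_option, Nat.add_comm]
  rfl

theorem puncture_injOn : Set.InjOn puncture (codeFinset : Set (GolayPt → ZMod 2)) := by
  intro v hv w hw h
  by_contra hne
  have hC := golayCode.sub_mem (mem_codeFinset.1 hv) (mem_codeFinset.1 hw)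
  have h8 := golayCode_min_weight hC (sub_ne_zero.2 hne)
  rw [hammingNorm_eq_puncture_add] at h8
  have h0 : puncture (v - w) = 0 := by
    funext x; have := congrFun h x; simp [puncture] at this ⊢; rw [this, sub_self]
  rw [h0, hammingNorm_zero] at h8
  have := ZMod.val_lt ((v - w) none)
  omega

theorem card_code23 : code23.card = 4096 := by
  rw [code23, Finset.card_image_of_injOn puncture_injOn, card_codeFinset]

theorem hammingNorm_puncture_natWord (n : ℕ) : hammingNorm (puncture (natWord n)) = popc 23 n := by
  rw [popc_eq, hammingNorm, Finset.card_filter]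
  refine Fintype.sum_equiv (ZMod.finEquiv 23).symm.toEquiv _ _ fun x => ?_
  show _ = (n.testBit x.val).toNat
  by_cases h : n.testBit x.val <;> simp [puncture, natWord, gIdx, h]

theorem card_code23_weight (k : ℕ) :
    (code23.filter fun u => hammingNorm u = k).card =
      codeList.countP (fun n => popc 23 n == k) := by
  classical
  rw [code23, Finset.filter_image,
    Finset.card_image_of_injOn (puncture_injOn.mono (Finset.coe_subset.2 (Finset.filter_subset _ _))),
    codeFinset, Finset.filter_image,
    Finset.card_image_of_injOn (natWord_injOn_codeList.mono (by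
      intro n hn; simp only [Finset.coe_filter, Set.mem_ofPred_eq, List.mem_toFinset] at hn
      exact hn.1))]
  rw [List.countP_eq_length_filter,
    ← List.toFinset_card_of_nodup (codeList_nodup.filter _), List.toFinset_filter]
  simp [hammingNorm_puncture_natWord]

theorem countP23 :
    [7, 8, 11, 12, 15, 16].map (fun k => codeList.countP (fun n => popc 23 n == k)) =
      [253, 506, 1288, 1288, 506, 253] := by decide +kernel

theorem weight_distribution23 :
    (code23.filter fun u => hammingNorm u = 7).card = 253 ∧
    (code23.filter fun u => hammingNorm u = 8).card = 506 ∧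
    (code23.filter fun u => hammingNorm u = 11).card = 1288 ∧
    (code23.filter fun u => hammingNorm u = 12).card = 1288 ∧
    (code23.filter fun u => hammingNorm u = 15).card = 506 ∧
    (code23.filter fun u => hammingNorm u = 16).card = 253 := by
  simp only [card_code23_weight]
  have h := countP23
  simp only [List.map_cons, List.map_nil, List.cons.injEq, and_true] at h
  exact h

theorem code23_min_weight {u : ZMod 23 → ZMod 2} (hu : u ∈ code23) (h0 : u ≠ 0) :
    7 ≤ hammingNorm u := by
  obtain ⟨w, hw, rfl⟩ := Finset.mem_image.1 hu
  have h8 := golayCode_min_weight (mem_codeFinset.1 hw) (by rintro rfl; exact h0 rfl)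
  rw [hammingNorm_eq_puncture_add] at h8
  have := ZMod.val_lt (w none)
  omega

/-- The punctured code is perfect. -/
theorem code23_perfect (u : ZMod 23 → ZMod 2) : ∃! c, c ∈ code23 ∧ hammingDist u c ≤ 3 := by
  let w : GolayPt → ZMod 2 := fun p => p.elim (1 + ∑ x, u x) u
  have hw : ∑ p, w p = 1 := by
    rw [Fintype.sum_option]; simp only [w, Option.elim]
    generalize ∑ x, u x = s; revert s; decide
  obtain ⟨v, hv, hv4⟩ := exists_leader golayCode (by simp) golayCode_finrank
    (fun _ h h0 => golayCode_min_weight h h0) w
  have hv3 : hammingNorm v ≤ 3 := by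
    have hev : ∑ p, (v + w) p = 0 := by
      rw [← natCast_hammingNorm, ZMod.natCast_eq_zero_iff]
      exact dvd_trans (by norm_num) (golayCode_four_dvd hv)
    simp only [Pi.add_apply, Finset.sum_add_distrib, hw] at hev
    by_contra h4
    have hvs : ∑ p, v p = 0 := by
      rw [← natCast_hammingNorm, show hammingNorm v = 4 by omega]; decide
    rw [hvs] at hev
    exact absurd hev (by decide)
  refine ⟨puncture (v + w), ⟨Finset.mem_image_of_mem _ (mem_codeFinset.2 hv), ?_⟩, ?_⟩
  · rw [hammingDist_eq_hammingNorm, neg_add_eq_sub]
    have : puncture (v + w) - u = puncture v := by funext x; simp [puncture, w]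
    have h2 : hammingNorm (puncture v) ≤ hammingNorm v := by
      rw [hammingNorm_eq_puncture_add v]; omega
    rw [this]; omega
  · rintro c ⟨hc, hd⟩
    obtain ⟨x, hx, rfl⟩ := Finset.mem_image.1 hc
    by_contra hne
    have hne' : puncture x - puncture (v + w) ≠ 0 := sub_ne_zero.2 hne
    have hmem : puncture x - puncture (v + w) ∈ code23 :=
      Finset.mem_image.2 ⟨x - (v + w), mem_codeFinset.2 (golayCode.sub_mem (mem_codeFinset.1 hx) hv),
        rfl⟩
    have h7 := code23_min_weight hmem hne'
    rw [← neg_add_eq_sub, ← hammingDist_eq_hammingNorm, hammingDist_comm] at h7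
    have htri := hammingDist_triangle (puncture x) u (puncture (v + w))
    rw [hammingDist_comm (puncture x) u] at htri
    have hd2 : hammingDist u (puncture (v + w)) ≤ 3 := by
      rw [hammingDist_eq_hammingNorm, neg_add_eq_sub]
      have : puncture (v + w) - u = puncture v := by funext y; simp [puncture, w]
      have h2 : hammingNorm (puncture v) ≤ hammingNorm v := by
        rw [hammingNorm_eq_puncture_add v]; omega
      rw [this]; omega
    omega

end Cfsg.Agent.H9
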