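import Cfsg.Agent.H9.FieldFour

/-!
# Additive functions on the isotropic vectors of a Hermitian space over the field of four elements
-/

set_option autoImplicit false

namespace Cfsg.Agent.H9.FieldFour

/-- Conjugation. -/
noncomputable abbrev cnj : F4 →+* F4 := frobenius F4 2

theorem cnj_apply (c : F4) : cnj c = c ^ 2 := frobenius_def _ _

theorem cnj_cnj (c : F4) : cnj (cnj c) = c := by
  rw [cnj_apply, cnj_apply, ← pow_mul]
  have := FiniteField.pow_card c
  rwa [card_F4] at this

theorem cnj_om : cnj om = om + 1 := by rw [cnj_apply, om_sq]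

theorem cnj_fixed {c : F4} (h : cnj c = c) : c = 0 ∨ c = 1 := by
  rw [cnj_apply] at h
  exact (mul_eq_zero.1 (show c * (c - 1) = 0 by linear_combination h)).imp id sub_eq_zero.1

theorem norm_eq_one {c : F4} (h : c ≠ 0) : cnj c * c = 1 := by
  have := FiniteField.pow_card_sub_one_eq_one c h
  rw [card_F4] at this
  rw [cnj_apply]
  linear_combination this

/-- The trace to the field of two elements. -/
noncomputable def tr (c : F4) : F4 := c + cnj c

theorem tr_add (a b : F4) : tr (a + b) = tr a + tr b := by simp only [tr, map_add]; abel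

theorem tr_fixed (c : F4) : cnj (tr c) = tr c := by rw [tr, map_add, cnj_cnj, add_comm]

theorem tr_om_mul {c : F4} (h : cnj c = c) : tr (om * c) = c := by
  rw [tr, map_mul, h, cnj_om]
  linear_combination (om * c) * two_eq_zero

variable {V : Type*} [AddCommGroup V] [Module F4 V]

/-- An additive function on isotropic vectors, as far as sums stay isotropic, is additive. -/
theorem exists_extension {P : Type*} [AddCommGroup P] (hP : ∀ a : P, a + a = 0)
    (H : V →ₛₗ[cnj] V →ₗ[F4] F4) (hsymm : ∀ a b, cnj (H a b) = H b a)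
    {p q : V} (hp : H p p = 0) (hq : H q q = 0) (hpq : H p q = 1)
    (f : V → P) (hf : ∀ a b, H a a = 0 → H b b = 0 → H (a + b) (a + b) = 0 → f (a + b) = f a + f b) :
    ∃ L : V →+ P, ∀ a, H a a = 0 → L a = f a := by
  have hqp : H q p = 1 := by rw [← hsymm, hpq, map_one]
  have hmul : ∀ (e : V), H e e = 0 → ∀ c : F4, H (c • e) (c • e) = 0 := fun e he c => by
    simp [LinearMap.map_smulₛₗ, he]
  have hline : ∀ (e : V), H e e = 0 → ∀ a b : F4, f ((a + b) • e) = f (a • e) + f (b • e) := by
    intro e he a b
    rw [add_smul]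
    refine hf _ _ (hmul e he a) (hmul e he b) ?_
    rw [← add_smul]; exact hmul e he _
  let fp : F4 →+ P := AddMonoidHom.mk' (fun c => f (c • p)) (hline p hp)
  let fq : F4 →+ P := AddMonoidHom.mk' (fun c => f (c • q)) (hline q hq)
  let L0 : V →+ P := fp.comp (H q).toAddMonoidHom + fq.comp (H p).toAddMonoidHom
  let f' : V → P := fun a => f a + L0 a
  have hf' : ∀ a b, H a a = 0 → H b b = 0 → H (a + b) (a + b) = 0 → f' (a + b) = f' a + f' b := by
    intro a b ha hb hab
    simp only [f', map_add, hf a b ha hb hab]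
    abel
  have f0 : f 0 = 0 := by
    have := hf 0 0 (by simp) (by simp) (by simp)
    rw [add_zero] at this
    exact left_eq_add.1 this
  have hL0p : ∀ c : F4, L0 (c • p) = f (c • p) := fun c => by
    simp [L0, fp, fq, hqp, hp, f0]
  have hL0q : ∀ c : F4, L0 (c • q) = f (c • q) := fun c => by
    simp [L0, fp, fq, hpq, hq, f0]
  have hf'p : ∀ c : F4, f' (c • p) = 0 := fun c => by simp only [f', hL0p, hP]
  have hf'q : ∀ c : F4, f' (c • q) = 0 := fun c => by simp only [f', hL0q, hP]
  -- the projection
  let π : V →+ V := AddMonoidHom.mk' (fun a => a - H q a • p - H p a • q) fun a b => by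
    simp only [map_add, add_smul]; abel
  have hπp : ∀ a, H p (π a) = 0 := fun a => by
    simp only [π, AddMonoidHom.mk'_apply, map_sub, map_smul, hp, hpq, smul_eq_mul]; ring
  have hπq : ∀ a, H q (π a) = 0 := fun a => by
    simp only [π, AddMonoidHom.mk'_apply, map_sub, map_smul, hqp, hq, smul_eq_mul]; ring
  have hnorm : ∀ (c a : F4) (u : V), H p u = 0 → H q u = 0 →
      H (c • q + a • p + u) (c • q + a • p + u) = tr (cnj c * a) + H u u := by
    intro c a u hu1 hu2
    have hu1' : H u p = 0 := by rw [← hsymm, hu1, map_zero]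
    have hu2' : H u q = 0 := by rw [← hsymm, hu2, map_zero]
    simp only [map_add, LinearMap.add_apply, LinearMap.map_smulₛₗ, LinearMap.smul_apply, map_smul,
      smul_eq_mul, hp, hq, hpq, hqp, hu1, hu2, hu1', hu2', tr, map_mul, cnj_cnj]
    ring
  have huu : ∀ u, cnj (H u u) = H u u := fun u => hsymm u u
  let g : F4 → V → P := fun c u => f' (c • q + (c * (om * H u u)) • p + u)
  have hgiso : ∀ {c : F4} (u : V), c ≠ 0 → H p u = 0 → H q u = 0 →
      H (c • q + (c * (om * H u u)) • p + u) (c • q + (c * (om * H u u)) • p + u) = 0 := by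
    intro c u hc h1 h2
    rw [hnorm _ _ _ h1 h2, ← mul_assoc (cnj c), norm_eq_one hc, one_mul, tr_om_mul (huu u),
      add_self]
  have hg : ∀ {c : F4} (a : F4) (u : V), c ≠ 0 → H p u = 0 → H q u = 0 →
      H (c • q + a • p + u) (c • q + a • p + u) = 0 → f' (c • q + a • p + u) = g c u := by
    intro c a u hc h1 h2 hiso
    have e : c • q + a • p + u =
        (c • q + (c * (om * H u u)) • p + u) + (a - c * (om * H u u)) • p := by
      rw [sub_smul]; abel
    rw [e, hf' _ _ (hgiso u hc h1 h2) (hmul p hp _) (by rw [← e]; exact hiso), hf'p, add_zero]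
  have g0 : ∀ c : F4, g c 0 = 0 := fun c => by
    simpa [g] using hf'q c
  have hom1 : om + 1 ≠ 0 := fun h => om_ne_one (by linear_combination h - two_eq_zero)
  have key : ∀ u u', H p u = 0 → H q u = 0 → H p u' = 0 → H q u' = 0 →
      g 1 u + g om u' = g (om + 1) (u + u') := by
    intro u u' h1 h2 h1' h2'
    set a : F4 := 1 * (om * H u u) with ha
    set b0 : F4 := om * (om * H u' u') with hb0
    set k : F4 := tr (b0 + cnj a * om + H u u') with hk
    have hkk : cnj k = k := tr_fixed _
    set b : F4 := b0 + om * k with hb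
    set z := (1 : F4) • q + a • p + u with hz
    set z' := om • q + b • p + u' with hz'
    have hzi : H z z = 0 := hgiso u one_ne_zero h1 h2
    have hzi' : H z' z' = 0 := by
      rw [hz', hnorm _ _ _ h1' h2', hb, mul_add, hb0, ← mul_assoc, norm_eq_one om_ne_zero, one_mul,
        ← mul_assoc, norm_eq_one om_ne_zero, one_mul, tr_add, tr_om_mul (huu u'), tr, hkk,
        add_self, add_zero, add_self]
    have hcross : tr (H z z') = 0 := by
      have hu1 : H u p = 0 := by rw [← hsymm, h1, map_zero]
      have hu2 : H u q = 0 := by rw [← hsymm, h2, map_zero]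
      have : H z z' = b0 + cnj a * om + H u u' + om * k := by
        simp only [hz, hz', hb, map_add, LinearMap.add_apply, LinearMap.map_smulₛₗ,
          LinearMap.smul_apply, map_smul, smul_eq_mul, hp, hq, hpq, hqp, h1', h2', hu1, hu2,
          map_one]
        ring
      rw [this, tr_add, tr_om_mul hkk, ← hk, add_self]
    have hsum : z + z' = (om + 1) • q + (a + b) • p + (u + u') := by
      rw [hz, hz', add_smul om 1, add_smul a b]; abel
    have hsi : H (z + z') (z + z') = 0 := by
      simp only [map_add, LinearMap.add_apply, hzi, hzi', zero_add, add_zero]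
      rw [← hsymm z z', add_comm]
      exact hcross
    have h := hf' z z' hzi hzi' hsi
    rw [show f' z = g 1 u from rfl, hg b u' om_ne_zero h1' h2' hzi', hsum,
      hg (a + b) (u + u') hom1 (by rw [map_add, h1, h1', add_zero])
        (by rw [map_add, h2, h2', add_zero]) (by rw [← hsum]; exact hsi)] at h
    exact h.symm
  have hz1 : H p (0 : V) = 0 := map_zero _
  have hz2 : H q (0 : V) = 0 := map_zero _
  have e1 : ∀ u, H p u = 0 → H q u = 0 → g (om + 1) u = g 1 u := fun u h1 h2 => by
    have := key u 0 h1 h2 hz1 hz2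
    rwa [g0, add_zero, add_zero, eq_comm] at this
  have e2 : ∀ u, H p u = 0 → H q u = 0 → g om u = g 1 u := fun u h1 h2 => by
    have := key 0 u hz1 hz2 h1 h2
    rwa [g0, zero_add, zero_add, e1 u h1 h2] at this
  let Lg : V →+ P := AddMonoidHom.mk' (fun a => g 1 (π a)) fun a b => by
    have := key (π a) (π b) (hπp a) (hπq a) (hπp b) (hπq b)
    rw [e2 _ (hπp b) (hπq b), ← map_add, e1 _ (hπp _) (hπq _)] at this
    exact this.symm
  refine ⟨L0 + Lg, fun a ha => ?_⟩
  suffices h : f' a = g 1 (π a) by
    show L0 a + Lg a = f a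
    show L0 a + g 1 (π a) = f a
    rw [← h]
    show L0 a + (f a + L0 a) = f a
    rw [add_left_comm, hP, add_zero]
  suffices hgen : ∀ (c b : F4) (u : V), H p u = 0 → H q u = 0 →
      H (c • q + b • p + u) (c • q + b • p + u) = 0 → f' (c • q + b • p + u) = g 1 u by
    have hdec : H p a • q + H q a • p + π a = a := by
      simp only [π, AddMonoidHom.mk'_apply]; abel
    have := hgen (H p a) (H q a) (π a) (hπp a) (hπq a) (by rw [hdec]; exact ha)
    rwa [hdec] at this
  intro c b u h1 h2 ha
  rcases F4_cases c with rfl | rfl | rfl | rfl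
  · -- level zero
    rw [zero_smul, zero_add] at ha ⊢
    have hu0 : H u u = 0 := by
      have h := hnorm 0 b u h1 h2
      rw [zero_smul, zero_add, ha] at h
      simpa [tr] using h.symm
    obtain ⟨c, hc, htr⟩ : ∃ c : F4, c ≠ 0 ∧ tr (cnj c * b) = 0 := by
      rcases eq_or_ne b 0 with rfl | hb
      · exact ⟨1, one_ne_zero, by simp [tr]⟩
      · exact ⟨b, hb, by rw [norm_eq_one hb, tr, map_one, add_self]⟩
    have hiso : H (c • q + b • p + u) (c • q + b • p + u) = 0 := by
      rw [hnorm _ _ _ h1 h2, htr, hu0, add_zero]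
    have hcq : c • q + (c • q + b • p + u) = b • p + u := by
      rw [← add_assoc, ← add_assoc, ← add_smul, add_self, zero_smul, zero_add]
    have h := hf' _ _ (hmul q hq c) hiso (by rw [hcq]; exact ha)
    rw [hcq, hf'q, zero_add, hg b u hc h1 h2 hiso] at h
    rw [h]
    rcases F4_cases c with rfl | rfl | rfl | rfl
    exacts [absurd rfl hc, rfl, e2 u h1 h2, e1 u h1 h2]
  · exact hg b u one_ne_zero h1 h2 ha
  · rw [hg b u om_ne_zero h1 h2 ha, e2 u h1 h2]
  · rw [hg b u hom1 h1 h2 ha, e1 u h1 h2]

end Cfsg.Agent.H9.FieldFour
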