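import Cfsg.Agent.H9.Monomial

/-!
# The hexacode, computed over the four symbols `0, 1, ω, ω²`
-/

set_option autoImplicit false

namespace Cfsg.Agent.H9

/-- Addition of the symbols 0, 1, ω, ω². -/
def addT (a b : Fin 4) : Fin 4 :=
  ![![0, 1, 2, 3], ![1, 0, 3, 2], ![2, 3, 0, 1], ![3, 2, 1, 0]] a b

/-- Multiplication of the symbols 0, 1, ω, ω². -/
def mulT (a b : Fin 4) : Fin 4 :=
  ![![0, 0, 0, 0], ![0, 1, 2, 3], ![0, 2, 3, 1], ![0, 3, 1, 2]] a b

/-- The three defining generators. -/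
def hexGen : Fin 3 → Fin 6 → Fin 4 :=
  ![![2, 3, 3, 2, 3, 2], ![3, 2, 2, 3, 3, 2], ![3, 2, 3, 2, 2, 3]]

/-- Systematic generators. -/
def hexSys : Fin 3 → Fin 6 → Fin 4 :=
  ![![1, 0, 0, 1, 3, 2], ![0, 1, 0, 1, 2, 3], ![0, 0, 1, 1, 1, 1]]

/-- Combination of three words. -/
def hexComb (G : Fin 3 → Fin 6 → Fin 4) (a b c : Fin 4) (i : Fin 6) : Fin 4 :=
  addT (addT (mulT a (G 0 i)) (mulT b (G 1 i))) (mulT c (G 2 i))

/-- Membership test. -/
def isHex (v : Fin 6 → Fin 4) : Bool := decide (∀ i, hexComb hexSys (v 0) (v 1) (v 2) i = v i)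

theorem isHex_iff (v : Fin 6 → Fin 4) : isHex v = true ↔ hexComb hexSys (v 0) (v 1) (v 2) = v := by
  simp [isHex, funext_iff]

theorem isHex_comb_gen : ∀ a b c, isHex (hexComb hexGen a b c) = true := by decide +kernel

theorem sys_exists_gen : ∀ a b c, ∃ a' b' c', ∀ i, hexComb hexGen a' b' c' i = hexComb hexSys a b c i := by
  decide +kernel

theorem hexSys_info : ∀ a b c, hexComb hexSys a b c 0 = a ∧ hexComb hexSys a b c 1 = b ∧
    hexComb hexSys a b c 2 = c := by decide +kernel

section Field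

variable {F : Type*} [Field F] [Fintype F] [DecidableEq F] (hF : Fintype.card F = 4) {ω : F}
  (hω : ω ^ 2 + ω + 1 = 0)

/-- Interpretation of a symbol. -/
def hexVal (ω : F) : Fin 4 → F := ![0, 1, ω, ω ^ 2]

include hF in
theorem two_eq_zero_of_four : (2 : F) = 0 := by
  have h := FiniteField.cast_card_eq_zero F
  rw [hF] at h
  have h4 : (2 : F) * 2 = 0 := by norm_num; exact_mod_cast h
  rcases mul_eq_zero.1 h4 with h | h <;> exact h

include hF hω in
theorem omega_sq : ω ^ 2 = ω + 1 := by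
  have h2 := two_eq_zero_of_four (F := F) hF
  linear_combination hω - (ω + 1) * h2

include hF hω in
theorem hexVal_add : ∀ a b, hexVal ω (addT a b) = hexVal ω a + hexVal ω b := by
  have h2 := two_eq_zero_of_four (F := F) hF
  have hs := omega_sq hF hω
  intro a b
  fin_cases a <;> fin_cases b <;> simp [hexVal, addT, hs] <;> grind

include hF hω in
theorem hexVal_mul : ∀ a b, hexVal ω (mulT a b) = hexVal ω a * hexVal ω b := by
  have h2 := two_eq_zero_of_four (F := F) hF
  have hs := omega_sq hF hω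
  intro a b
  fin_cases a <;> fin_cases b <;> simp [hexVal, mulT, hs] <;> grind

include hF hω in
theorem hexVal_bijective : Function.Bijective (hexVal ω) := by
  rw [Fintype.bijective_iff_injective_and_card]
  refine ⟨?_, by simp [hF]⟩
  have h2 := two_eq_zero_of_four (F := F) hF
  have hs := omega_sq hF hω
  have h0 : ω ≠ 0 := by rintro rfl; simp at hω
  have h1 : ω ≠ 1 := by
    rintro rfl
    exact one_ne_zero (α := F) (by linear_combination hω - h2)
  have h01 : ω + 1 ≠ 0 := fun h => h1 (by linear_combination h - h2)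
  intro a b h
  fin_cases a <;> fin_cases b <;> simp [hexVal, hs] at h ⊢ <;> grind

include hF hω in
/-- The words of the hexacode. -/
theorem mem_hexacode_iff (x : Fin 6 → F) :
    x ∈ hexacode F ω ↔ ∃ v, isHex v = true ∧ hexVal ω ∘ v = x := by
  have hb := hexVal_bijective hF hω
  have hg : ∀ k i, hexVal ω (hexGen k i) = ![![ω, ω ^ 2, ω ^ 2, ω, ω ^ 2, ω],
      ![ω ^ 2, ω, ω, ω ^ 2, ω ^ 2, ω], ![ω ^ 2, ω, ω ^ 2, ω, ω, ω ^ 2]] k i := by
    intro k i; fin_cases k <;> fin_cases i <;> rfl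
  have hcomb : ∀ a b c, hexVal ω ∘ hexComb hexGen a b c =
      hexVal ω a • ![ω, ω ^ 2, ω ^ 2, ω, ω ^ 2, ω] +
        (hexVal ω b • ![ω ^ 2, ω, ω, ω ^ 2, ω ^ 2, ω] +
          hexVal ω c • ![ω ^ 2, ω, ω ^ 2, ω, ω, ω ^ 2]) := by
    intro a b c
    funext i
    simp only [Function.comp, hexComb, hexVal_add hF hω, hexVal_mul hF hω, hg, Pi.add_apply,
      Pi.smul_apply, smul_eq_mul]
    rw [add_assoc]
    rfl
  rw [hexacode, Submodule.mem_span_triple]
  constructor
  · rintro ⟨p, q, r, rfl⟩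
    obtain ⟨a, rfl⟩ := hb.2 p
    obtain ⟨b, rfl⟩ := hb.2 q
    obtain ⟨c, rfl⟩ := hb.2 r
    exact ⟨_, isHex_comb_gen a b c, by rw [hcomb a b c]; abel⟩
  · rintro ⟨v, hv, rfl⟩
    obtain ⟨a, b, c, h⟩ := sys_exists_gen (v 0) (v 1) (v 2)
    rw [(isHex_iff v).1 hv] at h
    exact ⟨hexVal ω a, hexVal ω b, hexVal ω c, by rw [← funext h, hcomb a b c]; abel⟩

/-- The code words as a finset of symbol words. -/
def hexWords : Finset (Fin 6 → Fin 4) :=
  (Finset.univ : Finset (Fin 4 × Fin 4 × Fin 4)).image fun t => hexComb hexSys t.1 t.2.1 t.2.2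

theorem mem_hexWords {v : Fin 6 → Fin 4} : v ∈ hexWords ↔ isHex v = true := by
  rw [isHex_iff, hexWords, Finset.mem_image]
  constructor
  · rintro ⟨⟨a, b, c⟩, -, rfl⟩
    obtain ⟨h0, h1, h2⟩ := hexSys_info a b c
    simp only [h0, h1, h2]
  · intro h; exact ⟨(v 0, v 1, v 2), Finset.mem_univ _, h⟩

theorem hexComb_injective :
    Function.Injective fun t : Fin 4 × Fin 4 × Fin 4 => hexComb hexSys t.1 t.2.1 t.2.2 := by
  rintro ⟨a, b, c⟩ ⟨a', b', c'⟩ h
  obtain ⟨h0, h1, h2⟩ := hexSys_info a b c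
  obtain ⟨k0, k1, k2⟩ := hexSys_info a' b' c'
  simp only [funext_iff] at h
  simp only [Prod.mk.injEq]
  exact ⟨(h0.symm.trans (h 0)).trans k0, (h1.symm.trans (h 1)).trans k1,
    (h2.symm.trans (h 2)).trans k2⟩

/-- Number of non-zero entries. -/
def hexWt (v : Fin 6 → Fin 4) : ℕ :=
  ([0, 1, 2, 3, 4, 5] : List (Fin 6)).countP fun i => v i != 0

theorem hexWt_eq (v : Fin 6 → Fin 4) : hexWt v = (Finset.univ.filter fun i => v i ≠ 0).card := by
  rw [hexWt, List.countP_eq_length_filter, ← List.toFinset_card_of_nodup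
    ((show ([0, 1, 2, 3, 4, 5] : List (Fin 6)).Nodup by decide).filter _), List.toFinset_filter]
  congr 1
  ext i
  fin_cases i <;> simp

theorem hexWt_cases : ∀ a b c, (a = 0 ∧ b = 0 ∧ c = 0) ∨ hexWt (hexComb hexSys a b c) = 4 ∨
    hexWt (hexComb hexSys a b c) = 6 := by decide +kernel

theorem hexWt_count :
    (((List.finRange 4).flatMap fun a => (List.finRange 4).flatMap fun b =>
      (List.finRange 4).map fun c => hexWt (hexComb hexSys a b c)).countP (· == 4) = 45) ∧
    (((List.finRange 4).flatMap fun a => (List.finRange 4).flatMap fun b =>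
      (List.finRange 4).map fun c => hexWt (hexComb hexSys a b c)).countP (· == 6) = 18) := by
  decide +kernel

theorem hexWords_card : hexWords.card = 64 := by
  rw [hexWords, Finset.card_image_of_injective _ hexComb_injective]; rfl

theorem hexWords_count (k : ℕ) :
    (hexWords.filter fun v => hexWt v = k).card =
      ((List.finRange 4).flatMap fun a => (List.finRange 4).flatMap fun b =>
        (List.finRange 4).map fun c => hexWt (hexComb hexSys a b c)).countP (· == k) := by
  classical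
  rw [hexWords, Finset.filter_image, Finset.card_image_of_injective _ hexComb_injective]
  have hl : ((List.finRange 4).flatMap fun a => (List.finRange 4).flatMap fun b =>
      (List.finRange 4).map fun c => hexWt (hexComb hexSys a b c)) =
      ((List.finRange 4) ×ˢ ((List.finRange 4) ×ˢ (List.finRange 4))).map
        fun t => hexWt (hexComb hexSys t.1 t.2.1 t.2.2) := by
    simp [SProd.sprod, List.product, List.map_flatMap, Function.comp_def]
  rw [hl, List.countP_map, List.countP_eq_length_filter,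
    ← List.toFinset_card_of_nodup (List.Nodup.filter _
      ((List.nodup_finRange 4).product ((List.nodup_finRange 4).product (List.nodup_finRange 4))))]
  congr 1
  ext ⟨a, b, c⟩
  simp

include hF hω in
theorem hexWords_image :
    (hexacode F ω : Set (Fin 6 → F)) = (fun v => hexVal ω ∘ v) '' (hexWords : Set _) := by
  ext x; simp [mem_hexacode_iff hF hω, mem_hexWords, Function.comp_def]

/-- Concrete test for a monomial map on symbols. -/
def hexPres (σ : Equiv.Perm (Fin 6)) (e : Fin 6 → Fin 4) : Bool :=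
  decide (∀ k, isHex (fun i => mulT (e i) (hexGen k (σ.symm i))) = true)

include hF hω in
theorem monPres_hexacode_iff (σ : Equiv.Perm (Fin 6)) (c : Fin 6 → Fˣ) (e : Fin 6 → Fin 4)
    (he : ∀ i, hexVal ω (e i) = (c i : F)) :
    MonPres (hexacode F ω) σ c ↔ hexPres σ e = true := by
  have hkey : ∀ k, monomialMap σ c (hexVal ω ∘ hexGen k) =
      hexVal ω ∘ fun i => mulT (e i) (hexGen k (σ.symm i)) := by
    intro k; funext i; simp [monomialMap, hexVal_mul hF hω, he]
  have hmem : ∀ v, hexVal ω ∘ v ∈ hexacode F ω ↔ isHex v = true := fun v => by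
    rw [mem_hexacode_iff hF hω]
    refine ⟨fun ⟨w, hw, h⟩ => ?_, fun h => ⟨v, h, rfl⟩⟩
    have : w = v := (hexVal_bijective hF hω).1.comp_left h
    rwa [this] at hw
  have hgen : ∀ k, hexVal ω ∘ hexGen k = ![![ω, ω ^ 2, ω ^ 2, ω, ω ^ 2, ω],
      ![ω ^ 2, ω, ω, ω ^ 2, ω ^ 2, ω], ![ω ^ 2, ω, ω ^ 2, ω, ω, ω ^ 2]] k := by
    intro k; funext i; fin_cases k <;> fin_cases i <;> rfl
  simp only [hexPres, decide_eq_true_eq]
  constructor
  · intro h k
    rw [← hmem, ← hkey]
    apply h
    rw [hgen, hexacode]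
    exact Submodule.subset_span (by fin_cases k <;> simp)
  · intro h
    refine monPres_of_span _ rfl ?_
    have hall : ∀ k, monomialMap σ c (![![ω, ω ^ 2, ω ^ 2, ω, ω ^ 2, ω],
        ![ω ^ 2, ω, ω, ω ^ 2, ω ^ 2, ω], ![ω ^ 2, ω, ω ^ 2, ω, ω, ω ^ 2]] k) ∈ hexacode F ω := by
      intro k; rw [← hgen, hkey, hmem]; exact h k
    rintro x (rfl | rfl | rfl)
    exacts [hall 0, hall 1, hall 2]

include hF hω in
theorem exists_symbols (c : Fin 6 → Fˣ) :
    ∃ e : Fin 6 → Fin 4, (∀ i, hexVal ω (e i) = (c i : F)) ∧ ∀ i, e i ≠ 0 := by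
  have hb := hexVal_bijective hF hω
  refine ⟨fun i => (hb.2 (c i : F)).choose, fun i => (hb.2 (c i : F)).choose_spec, fun i h => ?_⟩
  have := (hb.2 (c i : F)).choose_spec
  simp only [] at h
  rw [h] at this
  exact (c i).ne_zero this.symm

/-- Six non-zero symbols. -/
def hexNz (a b c d e f : Fin 3) : Fin 6 → Fin 4 :=
  ![a.succ, b.succ, c.succ, d.succ, e.succ, f.succ]

theorem exists_hexNz (e : Fin 6 → Fin 4) (he : ∀ i, e i ≠ 0) :
    ∃ a b c d g h, e = hexNz a b c d g h := by
  refine ⟨(e 0).pred (he 0), (e 1).pred (he 1), (e 2).pred (he 2), (e 3).pred (he 3),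
    (e 4).pred (he 4), (e 5).pred (he 5), ?_⟩
  funext i
  fin_cases i <;> simp [hexNz, Fin.succ_pred]

theorem hexPres_diag_aux : ∀ a b c d e f, hexPres 1 (hexNz a b c d e f) = true →
    b = a ∧ c = a ∧ d = a ∧ e = a ∧ f = a := by decide +kernel

theorem hexPres_diag : ∀ e : Fin 6 → Fin 4, (∀ i, e i ≠ 0) → hexPres 1 e = true →
    ∀ i j, e i = e j := by
  intro e he h
  obtain ⟨a, b, c, d, g, k, rfl⟩ := exists_hexNz e he
  obtain ⟨rfl, rfl, rfl, rfl, rfl⟩ := hexPres_diag_aux a b c d g k h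
  intro i j
  fin_cases i <;> fin_cases j <;> rfl

theorem hexPres_swap_aux : ∀ a b c d e f,
    hexPres (Equiv.swap 0 1) (hexNz a b c d e f) = false := by decide +kernel

theorem hexPres_swap : ∀ e : Fin 6 → Fin 4, (∀ i, e i ≠ 0) →
    hexPres (Equiv.swap 0 1) e = false := by
  intro e he
  obtain ⟨a, b, c, d, g, k, rfl⟩ := exists_hexNz e he
  exact hexPres_swap_aux a b c d g k

include hF hω in
theorem hexacode_diag (c : Fin 6 → Fˣ) (h : MonPres (hexacode F ω) 1 c) : ∀ i j, c i = c j := by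
  obtain ⟨e, he, he0⟩ := exists_symbols hF hω c
  intro i j
  apply Units.ext
  rw [← he, ← he, hexPres_diag e he0 ((monPres_hexacode_iff hF hω 1 c e he).1 h) i j]

include hF hω in
theorem mem_permPart_hexacode (σ : Equiv.Perm (Fin 6)) (e : Fin 6 → Fin 4)
    (he : ∀ i, e i ≠ 0) (h : hexPres σ e = true) : σ ∈ permPart (hexacode F ω) := by
  have hb := hexVal_bijective hF hω
  have h0 : ∀ i, hexVal ω (e i) ≠ 0 := fun i h => he i (hb.1 (h.trans rfl))
  exact ⟨fun i => Units.mk0 _ (h0 i), (monPres_hexacode_iff hF hω σ _ e (fun i => rfl)).2 h⟩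

/-- The four consecutive three-cycles. -/
def hexCycle : Fin 4 → Equiv.Perm (Fin 6) :=
  ![Equiv.swap 0 1 * Equiv.swap 1 2, Equiv.swap 1 2 * Equiv.swap 2 3,
    Equiv.swap 2 3 * Equiv.swap 3 4, Equiv.swap 3 4 * Equiv.swap 4 5]

/-- Scalars lifting the three-cycles. -/
def hexCycleScalar : Fin 4 → Fin 6 → Fin 4 :=
  ![![1, 1, 1, 1, 3, 2], ![1, 1, 1, 1, 2, 3], ![1, 3, 2, 2, 2, 2], ![1, 2, 3, 3, 3, 3]]

theorem hexCycle_ok : ∀ k, (∀ i, hexCycleScalar k i ≠ 0) ∧
    hexPres (hexCycle k) (hexCycleScalar k) = true ∧ Equiv.Perm.sign (hexCycle k) = 1 := by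
  decide +kernel

/-- The subgroup generated by the three-cycles. -/
def cycleGrp : Subgroup (Equiv.Perm (Fin 6)) := Subgroup.closure (Set.range hexCycle)

theorem swap_conj_mem {g : Equiv.Perm (Fin 6)} (hg : g ∈ cycleGrp) :
    Equiv.swap 0 1 * g * Equiv.swap 0 1 ∈ cycleGrp := by
  have hm : ∀ k, hexCycle k ∈ cycleGrp := fun k => Subgroup.subset_closure ⟨k, rfl⟩
  have h : cycleGrp ≤ cycleGrp.comap (MulAut.conj (Equiv.swap (0 : Fin 6) 1)).toMonoidHom := by
    refine (Subgroup.closure_le _).2 ?_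
    rintro _ ⟨k, rfl⟩
    show Equiv.swap 0 1 * hexCycle k * (Equiv.swap 0 1)⁻¹ ∈ cycleGrp
    rw [Equiv.swap_inv]
    have e : ∀ k, Equiv.swap 0 1 * hexCycle k * Equiv.swap 0 1 =
        ![hexCycle 0 * hexCycle 0, hexCycle 0 * hexCycle 0 * hexCycle 1, hexCycle 2, hexCycle 3] k := by
      decide +kernel
    rw [e]
    fin_cases k
    · exact mul_mem (hm 0) (hm 0)
    · exact mul_mem (mul_mem (hm 0) (hm 0)) (hm 1)
    · exact hm 2
    · exact hm 3
  have := h hg
  simpa using this

theorem mem_cycleGrp_or (σ : Equiv.Perm (Fin 6)) :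
    σ ∈ cycleGrp ∨ σ * Equiv.swap 0 1 ∈ cycleGrp := by
  have hm : ∀ k, hexCycle k ∈ cycleGrp := fun k => Subgroup.subset_closure ⟨k, rfl⟩
  have hσ : σ ∈ Submonoid.closure (Set.range fun i : Fin 5 => Equiv.swap i.castSucc i.succ) := by
    rw [Equiv.Perm.mclosure_swap_castSucc_succ]; trivial
  induction hσ using Submonoid.closure_induction with
  | one => exact Or.inl (one_mem _)
  | mem x hx =>
    obtain ⟨i, rfl⟩ := hx
    refine Or.inr ?_
    have e : ∀ i : Fin 5, Equiv.swap i.castSucc i.succ * Equiv.swap 0 1 =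
        ![1, hexCycle 0 * hexCycle 0, hexCycle 0 * hexCycle 1,
          hexCycle 0 * hexCycle 1 * hexCycle 2,
          hexCycle 0 * hexCycle 1 * hexCycle 2 * hexCycle 3] i := by decide +kernel
    rw [e]
    fin_cases i
    · exact one_mem _
    · exact mul_mem (hm 0) (hm 0)
    · exact mul_mem (hm 0) (hm 1)
    · exact mul_mem (mul_mem (hm 0) (hm 1)) (hm 2)
    · exact mul_mem (mul_mem (mul_mem (hm 0) (hm 1)) (hm 2)) (hm 3)
  | mul a b _ _ ha hb =>
    rcases ha with ha | ha <;> rcases hb with hb | hb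
    · exact Or.inl (mul_mem ha hb)
    · exact Or.inr (by rw [mul_assoc]; exact mul_mem ha hb)
    · refine Or.inr ?_
      have := mul_mem ha (swap_conj_mem hb)
      simpa [mul_assoc, Equiv.swap_mul_self_mul] using this
    · refine Or.inl ?_
      have := mul_mem ha (swap_conj_mem hb)
      simpa [mul_assoc, Equiv.swap_mul_self_mul, Equiv.swap_mul_self] using this

include hF hω in
theorem permPart_hexacode : permPart (hexacode F ω) = alternatingGroup (Fin 6) := by
  have hK : cycleGrp ≤ permPart (hexacode F ω) ⊓ alternatingGroup (Fin 6) := by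
    refine (Subgroup.closure_le _).2 ?_
    rintro _ ⟨k, rfl⟩
    obtain ⟨h0, h1, h2⟩ := hexCycle_ok k
    exact ⟨mem_permPart_hexacode hF hω _ _ h0 h1, Equiv.Perm.mem_alternatingGroup.2 h2⟩
  ext σ
  constructor
  · intro hσ
    rcases mem_cycleGrp_or σ with h | h
    · exact (hK h).2
    · exfalso
      have hs : Equiv.swap (0 : Fin 6) 1 ∈ permPart (hexacode F ω) := by
        simpa using mul_mem (inv_mem hσ) (hK h).1
      obtain ⟨c, hc⟩ := hs
      obtain ⟨e, he, he0⟩ := exists_symbols hF hω c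
      have h1 := (monPres_hexacode_iff hF hω _ c e he).1 hc
      rw [hexPres_swap e he0] at h1
      exact Bool.noConfusion h1
  · intro hσ
    rcases mem_cycleGrp_or σ with h | h
    · exact (hK h).1
    · exfalso
      have hs : Equiv.swap (0 : Fin 6) 1 ∈ alternatingGroup (Fin 6) := by
        simpa using mul_mem (inv_mem hσ) (hK h).2
      rw [Equiv.Perm.mem_alternatingGroup, Equiv.Perm.sign_swap (by decide)] at hs
      exact absurd hs (by decide)

include hF hω in
theorem natCard_hexacode_monomial :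
    Nat.card {f : Equiv.Perm (Fin 6) × (Fin 6 → Fˣ) // MonPres (hexacode F ω) f.1 f.2} = 1080 := by
  rw [natCard_monomial, permPart_hexacode hF hω, nat_card_alternatingGroup]
  have hd : Nat.card {d : Fin 6 → Fˣ // MonPres (hexacode F ω) 1 d} = Nat.card Fˣ := by
    refine Nat.card_congr
      { toFun := fun d => d.1 0
        invFun := fun u => ⟨fun _ => u, fun x hx => by
          have : monomialMap 1 (fun _ => u) x = (u : F) • x := by
            funext i; simp [monomialMap, Equiv.Perm.one_def]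
          rw [this]; exact Submodule.smul_mem _ _ hx⟩
        left_inv := fun d => Subtype.ext (funext fun i => hexacode_diag hF hω d.1 d.2 0 i)
        right_inv := fun u => rfl }
  rw [hd, Nat.card_units]
  simp [Nat.card_eq_fintype_card, hF, Nat.factorial]

end Field

end Cfsg.Agent.H9

namespace Cfsg.Agent.H9

theorem hexacode_counts {F : Type*} [Field F] [Fintype F] [DecidableEq F]
    (hF : Fintype.card F = 4) {ω : F} (hω : ω ^ 2 + ω + 1 = 0) :
    Nat.card ↥(hexacode F ω) = 64 ∧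
    (∀ x ∈ hexacode F ω, x ≠ 0 → (Finset.univ.filter fun i => x i ≠ 0).card = 4 ∨
      (Finset.univ.filter fun i => x i ≠ 0).card = 6) ∧
    {x : Fin 6 → F | x ∈ hexacode F ω ∧ (Finset.univ.filter fun i => x i ≠ 0).card = 4}.ncard = 45 ∧
    {x : Fin 6 → F | x ∈ hexacode F ω ∧ (Finset.univ.filter fun i => x i ≠ 0).card = 6}.ncard = 18 := by
  classical
  have hb := hexVal_bijective hF hω
  have hinj : Function.Injective fun v : Fin 6 → Fin 4 => hexVal ω ∘ v := hb.1.comp_left
  have hwt : ∀ v : Fin 6 → Fin 4,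
      (Finset.univ.filter fun i => (hexVal ω ∘ v) i ≠ 0).card = hexWt v := by
    intro v
    rw [hexWt_eq]
    congr 1
    ext i
    simp only [Finset.mem_filter, Finset.mem_univ, true_and, Function.comp, ne_eq]
    exact not_congr ⟨fun h => hb.1 (h.trans rfl), fun h => by rw [h]; rfl⟩
  have hset := hexWords_image hF hω
  have hk : ∀ k, {x : Fin 6 → F | x ∈ hexacode F ω ∧
      (Finset.univ.filter fun i => x i ≠ 0).card = k}.ncard =
        (hexWords.filter fun v => hexWt v = k).card := by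
    intro k
    rw [← Set.ncard_coe_finset, ← Set.ncard_image_of_injective _ hinj]
    congr 1
    ext x
    constructor
    · rintro ⟨hx, hxk⟩
      rw [← SetLike.mem_coe, hset] at hx
      obtain ⟨v, hv, rfl⟩ := hx
      rw [hwt] at hxk
      exact ⟨v, Finset.mem_filter.2 ⟨hv, hxk⟩, rfl⟩
    · rintro ⟨v, hv, rfl⟩
      obtain ⟨hv, hvk⟩ := Finset.mem_filter.1 hv
      refine ⟨?_, (hwt v).trans hvk⟩
      rw [← SetLike.mem_coe, hset]
      exact ⟨v, hv, rfl⟩
  refine ⟨?_, ?_, ?_, ?_⟩
  · rw [← hexWords_card, ← Set.ncard_coe_finset, ← Set.ncard_image_of_injective _ hinj, ← hset]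
    exact Nat.card_coe_set_eq _
  · intro x hx h0
    rw [← SetLike.mem_coe, hset] at hx
    obtain ⟨v, hv, rfl⟩ := hx
    rw [hwt]
    have hv' := (isHex_iff v).1 (mem_hexWords.1 hv)
    rcases hexWt_cases (v 0) (v 1) (v 2) with ⟨a, b, c⟩ | h | h
    · exfalso
      apply h0
      rw [a, b, c] at hv'
      rw [← hv']
      funext i
      fin_cases i <;> rfl
    · rw [hv'] at h; exact Or.inl h
    · rw [hv'] at h; exact Or.inr h
  · rw [hk, hexWords_count]; exact hexWt_count.1
  · rw [hk, hexWords_count]; exact hexWt_count.2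

end Cfsg.Agent.H9
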