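import Cfsg.Agent.H9.DistanceEight
import Cfsg.Agent.H11.M24Transitive

/-!
# Subspaces of binary words invariant under the automorphisms of the Golay code
-/

set_option autoImplicit false

namespace Cfsg.Agent.H9

open Finset Pointwise

/-- `σ` carries any short list of distinct points to any other one. -/
theorem exists_M24_map {l l' : List GolayPt} (hl : l.Nodup) (hl' : l'.Nodup)
    (hlen : l.length = l'.length) (h5 : l.length ≤ 5) : ∃ σ ∈ M24, l.map σ = l' := by
  classical
  have key : ∀ m : List GolayPt, m.Nodup → m.length ≤ 5 →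
      ∃ ext : List GolayPt, ext.length = 5 ∧ ext.Nodup ∧ ext.take m.length = m := by
    intro m hm hm5
    have hc : 5 - m.length ≤ (Finset.univ \ m.toFinset).toList.length := by
      rw [Finset.length_toList, Finset.card_univ_diff, List.toFinset_card_of_nodup hm]
      simp
      omega
    refine ⟨m ++ (Finset.univ \ m.toFinset).toList.take (5 - m.length), ?_, ?_, by simp⟩
    · rw [List.length_append, List.length_take, min_eq_left hc]; omega
    · rw [List.nodup_append]
      refine ⟨hm, List.Sublist.nodup (List.take_sublist _ _) (Finset.nodup_toList _), ?_⟩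
      intro a ha b hb hab
      have := Finset.mem_sdiff.1 (Finset.mem_toList.1 (List.mem_of_mem_take hb))
      exact this.2 (List.mem_toFinset.2 (hab ▸ ha))
  obtain ⟨e, he, hen, het⟩ := key l hl h5
  obtain ⟨e', he', hen', het'⟩ := key l' hl' (hlen ▸ h5)
  obtain ⟨g, hg, hgm⟩ := H11.exists_map_base5 e he hen
  obtain ⟨h, hh, hhm⟩ := H11.exists_map_base5 e' he' hen'
  refine ⟨h * g⁻¹, mul_mem hh (inv_mem hg), ?_⟩
  rw [← het, ← het', ← hgm, ← hhm, List.map_take, List.map_map, hlen]
  congr 1
  refine List.map_congr_left fun b _ => ?_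
  simp

/-- Equal small sets of points are conjugate. -/
theorem exists_M24_smul {s t : Finset GolayPt} (hst : s.card = t.card) (h5 : s.card ≤ 5) :
    ∃ σ ∈ M24, σ • s = t := by
  classical
  obtain ⟨σ, hσ, hm⟩ := exists_M24_map s.nodup_toList t.nodup_toList (by simp [hst]) (by simp; omega)
  refine ⟨σ, hσ, ?_⟩
  rw [← Finset.toList_toFinset t, ← hm]
  ext p
  simp [Finset.mem_smul_finset]

theorem apply_symm_indWord (σ : Equiv.Perm GolayPt) (s : Finset GolayPt) :
    (fun p => indWord s (σ.symm p)) = indWord (σ • s) := by
  funext p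
  have : p ∈ σ • s ↔ σ.symm p ∈ s := by
    rw [← Finset.inv_smul_mem_iff]; rfl
  simp only [indWord, this]

theorem exists_smul_sixteen {a b : Finset GolayPt} (ha : indWord a ∈ golayCode) (hac : a.card = 16)
    (hb : indWord b ∈ golayCode) (hbc : b.card = 16) : ∃ σ ∈ M24, σ • a = b := by
  classical
  have key : ∀ c : Finset GolayPt, indWord c ∈ golayCode → c.card = 16 → cᶜ ∈ octads := by
    intro c hc hcc
    refine mem_octads_iff.2 ⟨?_, by rw [Finset.card_compl, hcc]; rfl⟩
    have : indWord cᶜ = indWord c + 1 := by
      funext p; by_cases h : p ∈ c <;> simp [indWord, h] <;> decide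
    rw [this]
    exact golayCode.add_mem hc one_mem_golayCode
  obtain ⟨σ, hσ, h⟩ := H11.exists_smul_octad (key a ha hac) (key b hb hbc)
  refine ⟨σ, hσ, ?_⟩
  rw [← compl_compl b, ← h]
  ext p
  simp [← Finset.inv_smul_mem_iff]

section Invariant

variable (W : Submodule (ZMod 2) (GolayPt → ZMod 2))
  (hW : ∀ σ ∈ M24, ∀ w ∈ W, (fun p => w (σ.symm p)) ∈ W)

include hW in
theorem mem_smul_of_mem {σ : Equiv.Perm GolayPt} (hσ : σ ∈ M24) {s : Finset GolayPt}
    (hs : indWord s ∈ W) : indWord (σ • s) ∈ W := apply_symm_indWord σ s ▸ hW σ hσ _ hs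

include hW in
theorem all_weight_mem {k : ℕ} (hk : k = 8 ∨ k = 12 ∨ k = 16) {c : GolayPt → ZMod 2}
    (hc : c ∈ golayCode) (hcW : c ∈ W) (hck : hammingNorm c = k) :
    ∀ d ∈ golayCode, hammingNorm d = k → d ∈ W := by
  intro d hd hdk
  have hc' : indWord (support₂ c) ∈ golayCode := by rwa [indWord_support₂]
  have hd' : indWord (support₂ d) ∈ golayCode := by rwa [indWord_support₂]
  have hcc : (support₂ c).card = k := by rw [card_support₂, hck]
  have hdc : (support₂ d).card = k := by rw [card_support₂, hdk]
  obtain ⟨σ, hσ, h⟩ : ∃ σ ∈ M24, σ • support₂ c = support₂ d := by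
    rcases hk with rfl | rfl | rfl
    · exact H11.exists_smul_octad (mem_octads_iff.2 ⟨hc', hcc⟩) (mem_octads_iff.2 ⟨hd', hdc⟩)
    · exact H11.exists_smul_dodecad (mem_dodecads_iff.2 ⟨hc', hcc⟩) (mem_dodecads_iff.2 ⟨hd', hdc⟩)
    · exact exists_smul_sixteen hc' hcc hd' hdc
  rw [← indWord_support₂ d, ← h]
  exact mem_smul_of_mem W hW hσ (by rwa [indWord_support₂])

theorem code_witnesses : ∀ n ∈ [8245261, 15953934, 16101503, 8385418],
    codeList.getD (n % 4096) 0 = n := by decide +kernel

include hW in
/-- An invariant subspace with a code word other than 0 and 1 contains the code. -/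
theorem golayCode_le_of_mem {c : GolayPt → ZMod 2} (hc : c ∈ golayCode) (hcW : c ∈ W)
    (h0 : c ≠ 0) (h1 : c ≠ 1) : golayCode ≤ W := by
  have hwit : ∀ n ∈ [8245261, 15953934, 16101503, 8385418], natWord n ∈ golayCode := by
    intro n hn
    refine (mem_golayCode_iff _).2 ⟨n, ?_, rfl⟩
    have h := getD_mem_codeList (i := n % 4096) (Nat.mod_lt _ (by norm_num))
    rwa [code_witnesses n hn] at h
  have h8 : ∀ d ∈ golayCode, hammingNorm d = 8 → d ∈ W → golayCode ≤ W := by
    intro d hd hd8 hdW
    rw [← span_eight_eq golayCode (by simp) golayCode_finrank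
      (fun _ h h0 => golayCode_min_weight h h0) (fun _ hv _ hw => golayCode_self_orthogonal hv hw)]
    exact Submodule.span_le.2 fun e he => all_weight_mem W hW (Or.inl rfl) hd hdW hd8 e he.1 he.2
  have h12 : ∀ d ∈ golayCode, hammingNorm d = 12 → d ∈ W → golayCode ≤ W := by
    intro d hd hd12 hdW
    have hall := all_weight_mem W hW (Or.inr (Or.inl rfl)) hd hdW hd12
    refine h8 _ (golayCode.add_mem (hwit 8245261 (by simp)) (hwit 15953934 (by simp))) ?_
      (W.add_mem (hall _ (hwit _ (by simp)) ?_) (hall _ (hwit _ (by simp)) ?_))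
    · rw [← natWord_xor, hammingNorm_natWord]; decide +kernel
    · rw [hammingNorm_natWord]; decide +kernel
    · rw [hammingNorm_natWord]; decide +kernel
  rcases golayCode_weights hc with h | h | h | h | h
  · exact absurd (hammingNorm_eq_zero.1 h) h0
  · exact h8 c hc h hcW
  · exact h12 c hc h hcW
  · have hall := all_weight_mem W hW (Or.inr (Or.inr rfl)) hc hcW h
    refine h12 _ (golayCode.add_mem (hwit 16101503 (by simp)) (hwit 8385418 (by simp))) ?_
      (W.add_mem (hall _ (hwit _ (by simp)) ?_) (hall _ (hwit _ (by simp)) ?_))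
    · rw [← natWord_xor, hammingNorm_natWord]; decide +kernel
    · rw [hammingNorm_natWord]; decide +kernel
    · rw [hammingNorm_natWord]; decide +kernel
  · exfalso
    apply h1
    have hs : support₂ c = Finset.univ :=
      Finset.eq_univ_of_card _ (by rw [card_support₂, h]; simp)
    rw [← indWord_support₂ c, hs]; funext p; simp [indWord]

include hW in
/-- An invariant subspace inside the code. -/
theorem invariant_le_code (hle : W ≤ golayCode) :
    W = ⊥ ∨ W = Submodule.span (ZMod 2) {fun _ => (1 : ZMod 2)} ∨ W = golayCode := by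
  by_cases h : ∃ c ∈ W, c ≠ 0 ∧ c ≠ 1
  · obtain ⟨c, hcW, h0, h1⟩ := h
    exact Or.inr (Or.inr (le_antisymm hle (golayCode_le_of_mem W hW (hle hcW) hcW h0 h1)))
  · push Not at h
    by_cases hone : (1 : GolayPt → ZMod 2) ∈ W
    · refine Or.inr (Or.inl (le_antisymm (fun c hc => ?_) (Submodule.span_le.2 ?_)))
      · by_cases h0 : c = 0
        · rw [h0]; exact Submodule.zero_mem _
        · rw [h c hc h0]; exact Submodule.subset_span rfl
      · rintro c rfl; exact hone
    · refine Or.inl ((Submodule.eq_bot_iff _).2 fun c hc => ?_)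
      by_contra h0
      exact hone (h c hc h0 ▸ hc)

include hW in
theorem pairs_mem_of_small {s : Finset GolayPt} (hs : indWord s ∈ W) (hne : s.Nonempty)
    (h4 : s.card ≤ 4) : ∀ t : Finset GolayPt, t.card = 2 → indWord t ∈ W := by
  classical
  intro t ht
  obtain ⟨a, b, hab, rfl⟩ := Finset.card_eq_two.1 ht
  obtain ⟨R, hR, hRc⟩ := Finset.exists_subset_card_eq (s := (Finset.univ \ {a, b} : Finset GolayPt))
    (n := s.card - 1) (by rw [Finset.card_univ_diff, ht]; simp; omega)
  have hpos := hne.card_pos
  have haR : a ∉ R := fun h => by simpa using (hR h)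
  have hbR : b ∉ R := fun h => by simpa using (hR h)
  obtain ⟨σ, hσ, h1⟩ := exists_M24_smul (s := s) (t := insert a R)
    (by rw [Finset.card_insert_of_notMem haR]; omega) (by omega)
  obtain ⟨τ, hτ, h2⟩ := exists_M24_smul (s := s) (t := insert b R)
    (by rw [Finset.card_insert_of_notMem hbR]; omega) (by omega)
  have hsum := W.add_mem (mem_smul_of_mem W hW hσ hs) (mem_smul_of_mem W hW hτ hs)
  rw [h1, h2, indWord_add] at hsum
  convert hsum using 2
  ext p
  simp only [Finset.mem_insert, Finset.mem_singleton, Finset.mem_union, Finset.mem_sdiff]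
  constructor
  · rintro (rfl | rfl)
    · exact Or.inl ⟨Or.inl rfl, by rintro (h | h); exacts [hab h, haR h]⟩
    · exact Or.inr ⟨Or.inl rfl, by rintro (h | h); exacts [hab h.symm, hbR h]⟩
  · rintro (⟨h | h, h'⟩ | ⟨h | h, h'⟩)
    exacts [Or.inl h, absurd (Or.inr h) h', Or.inr h, absurd (Or.inr h) h']

/-- The even words. -/
def evenWords : Submodule (ZMod 2) (GolayPt → ZMod 2) :=
  LinearMap.ker (∑ p, LinearMap.proj p : (GolayPt → ZMod 2) →ₗ[ZMod 2] ZMod 2)

theorem mem_evenWords {w : GolayPt → ZMod 2} : w ∈ evenWords ↔ ∑ p, w p = 0 := by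
  simp [evenWords, LinearMap.mem_ker, LinearMap.sum_apply]

theorem evenWords_le (hpairs : ∀ t : Finset GolayPt, t.card = 2 → indWord t ∈ W) :
    evenWords ≤ W := by
  classical
  intro w hw
  rw [mem_evenWords] at hw
  induction hk : hammingNorm w using Nat.strong_induction_on generalizing w with
  | _ k ih =>
    by_cases h0 : w = 0
    · rw [h0]; exact W.zero_mem
    have hpos := hammingNorm_ne_zero_iff.2 h0
    have hev : 2 ∣ hammingNorm w := by
      rw [← ZMod.natCast_eq_zero_iff, natCast_hammingNorm, hw]
    obtain ⟨t, hts, ht⟩ := Finset.exists_subset_card_eq (s := support₂ w) (n := 2)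
      (by rw [card_support₂]; omega)
    have hsum := hammingNorm_add_two_inter w (indWord t)
    rw [hammingNorm_indWord, support₂_indWord, Finset.inter_eq_right.2 hts, ht] at hsum
    have hmem : w + indWord t ∈ W := by
      refine ih _ (by omega) ?_ rfl
      have hteven : (∑ p, indWord t p) = 0 := by
        rw [← natCast_hammingNorm, hammingNorm_indWord, ht]; rfl
      simp [Finset.sum_add_distrib, hw, hteven]
    simpa using W.sub_mem hmem (hpairs t ht)

include hW in
/-- The invariant subspaces of the permutation module. -/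
theorem invariant_cases :
    W = ⊥ ∨ W = Submodule.span (ZMod 2) {fun _ => (1 : ZMod 2)} ∨ W = golayCode ∨
      W = evenWords ∨ W = ⊤ := by
  classical
  by_cases hle : W ≤ golayCode
  · rcases invariant_le_code W hW hle with h | h | h
    exacts [Or.inl h, Or.inr (Or.inl h), Or.inr (Or.inr (Or.inl h))]
  obtain ⟨w, hwW, hwC⟩ := SetLike.not_le_iff_exists.1 hle
  obtain ⟨u, huC, hu4⟩ := exists_leader golayCode (by simp) golayCode_finrank
    (fun _ h h0 => golayCode_min_weight h h0) w
  have hu0 : u ≠ 0 := by rintro rfl; exact hwC (by simpa using huC)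
  have hscard : (support₂ u).card ≤ 4 := by rwa [card_support₂]
  have hsne : (support₂ u).Nonempty := by
    rw [← Finset.card_pos, card_support₂]
    exact Nat.pos_of_ne_zero (hammingNorm_ne_zero_iff.2 hu0)
  have heven_code : golayCode ≤ evenWords := fun c hc => by
    rw [mem_evenWords, ← natCast_hammingNorm, ZMod.natCast_eq_zero_iff]
    exact dvd_trans (by norm_num) (golayCode_four_dvd hc)
  set s := support₂ u
  have hus : u = indWord s := (indWord_support₂ u).symm
  have hadd : u + (u + w) = w := by
    funext p; show u p + (u p + w p) = w p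
    generalize u p = x; generalize w p = y; revert x y; decide
  have hcode : golayCode ≤ W := by
    by_cases hc0 : u + w = 0
    · refine heven_code.trans (evenWords_le W (pairs_mem_of_small W hW ?_ hsne hscard))
      rw [← hus]; rw [hc0, add_zero] at hadd; rwa [hadd]
    by_cases hc1 : u + w = 1
    · intro c hc
      have hmid : ∀ t : Finset GolayPt, t.card = 2 → indWord t ∈ W := by
        intro t ht
        obtain ⟨a, b, hab, rfl⟩ := Finset.card_eq_two.1 ht
        obtain ⟨R, hR, hRc⟩ := Finset.exists_subset_card_eq
          (s := (Finset.univ \ {a, b} : Finset GolayPt)) (n := s.card - 1)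
          (by rw [Finset.card_univ_diff, ht]; simp; omega)
        have hpos := hsne.card_pos
        have haR : a ∉ R := fun h => by simpa using (hR h)
        have hbR : b ∉ R := fun h => by simpa using (hR h)
        obtain ⟨σ, hσ, h1⟩ := exists_M24_smul (s := s) (t := insert a R)
          (by rw [Finset.card_insert_of_notMem haR]; omega) (by omega)
        obtain ⟨τ, hτ, h2⟩ := exists_M24_smul (s := s) (t := insert b R)
          (by rw [Finset.card_insert_of_notMem hbR]; omega) (by omega)
        have hw' : ∀ ρ ∈ M24, indWord (ρ • s) + 1 ∈ W := fun ρ hρ => by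
          have := hW ρ hρ w hwW
          rw [← hadd, hc1, hus] at this
          rwa [← apply_symm_indWord]
        have hsum := W.add_mem (hw' σ hσ) (hw' τ hτ)
        rw [h1, h2] at hsum
        have hsplit : indWord (insert a R) + 1 + (indWord (insert b R) + 1) =
            indWord ({a, b} : Finset GolayPt) := by
          funext p
          by_cases hpa : p = a
          · subst hpa; simp [indWord, hab, haR] <;> decide
          by_cases hpb : p = b
          · subst hpb; simp [indWord, Ne.symm hab, hbR] <;> decide
          by_cases hpR : p ∈ R <;> simp [indWord, hpa, hpb, hpR] <;> decide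
        rwa [hsplit] at hsum
      exact evenWords_le W hmid (heven_code hc)
    -- a code part moved by the pointwise stabiliser of `s`
    set c := u + w with hcdef
    have hwt : 8 ≤ hammingNorm c ∧ hammingNorm c ≤ 16 := by
      have h0 := hammingNorm_ne_zero_iff.2 hc0
      rcases golayCode_weights huC with h | h | h | h | h <;> refine ⟨by omega, ?_⟩ <;>
        first | omega | skip
      exfalso; apply hc1
      have hs : support₂ c = Finset.univ :=
        Finset.eq_univ_of_card _ (by rw [card_support₂, h]; simp)
      rw [← indWord_support₂ c, hs]; funext p; simp [indWord]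
    obtain ⟨x, hx⟩ : (support₂ c \ s).Nonempty := by
      rw [← Finset.card_pos]
      have := Finset.le_card_sdiff s (support₂ c)
      rw [card_support₂] at this; omega
    obtain ⟨y, hy⟩ : ((Finset.univ \ support₂ c) \ s).Nonempty := by
      rw [← Finset.card_pos]
      have := Finset.le_card_sdiff s (Finset.univ \ support₂ c)
      rw [Finset.card_univ_diff, card_support₂] at this
      simp at this
      omega
    simp only [Finset.mem_sdiff] at hx hy
    obtain ⟨σ, hσ, hm⟩ := exists_M24_map (l := x :: s.toList) (l' := y :: s.toList)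
      (List.nodup_cons.2 ⟨by simpa using hx.2, Finset.nodup_toList _⟩)
      (List.nodup_cons.2 ⟨by simpa using hy.2, Finset.nodup_toList _⟩) (by simp) (by simp; omega)
    simp only [List.map_cons, List.cons.injEq] at hm
    have hfix : ∀ p ∈ s, σ p = p := by
      intro p hp
      exact List.map_inj_left.1 (hm.2.trans (List.map_id _).symm) p (Finset.mem_toList.2 hp)
    have hsig : σ • s = s := by
      ext p
      constructor
      · rintro hp; obtain ⟨q, hq, rfl⟩ := Finset.mem_smul_finset.1 hp
        show σ q ∈ s; rw [hfix q hq]; exact hq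
      · intro hp; exact Finset.mem_smul_finset.2 ⟨p, hp, hfix p hp⟩
    have hσc : (fun p => c (σ.symm p)) ∈ golayCode := by
      have hsupp : support₂ c ∈ supports (golayCode : Set (GolayPt → ZMod 2)) := ⟨c, huC, rfl⟩
      have h2 := Set.smul_mem_smul_set (a := σ) hsupp
      rw [MulAction.mem_stabilizer_iff.1 hσ] at h2
      obtain ⟨d, hd, hde⟩ := h2
      have : (fun p => c (σ.symm p)) = d := by
        rw [← indWord_support₂ d, hde, ← apply_symm_indWord, indWord_support₂]
      rw [this]; exact hd
    refine golayCode_le_of_mem W hW (golayCode.add_mem huC hσc) ?_ ?_ ?_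
    · have h2 := W.add_mem hwW (hW σ hσ w hwW)
      have heq : w + (fun p => w (σ.symm p)) = c + fun p => c (σ.symm p) := by
        have hu' : (fun p => u (σ.symm p)) = u := by
          rw [hus, apply_symm_indWord, hsig]
        funext p
        have hp := congrFun hu' p
        simp only [hcdef, Pi.add_apply, hp]
        generalize u p = a; generalize w p = b; generalize w (σ.symm p) = d
        revert a b d; decide
      rwa [heq] at h2
    · intro h
      have hp := congrFun h y
      have hxy : σ.symm y = x := by rw [← hm.1]; simp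
      have hcx : c x = 1 := (zmod2_ne_zero_iff _).1 (by simpa [support₂] using hx.1)
      have hcy : c y = 0 := by simpa [support₂] using hy.1.2
      simp [hxy, hcx, hcy] at hp
    · intro h
      obtain ⟨p, hp⟩ := hsne
      have hq := congrFun h p
      have hsp : σ.symm p = p := by rw [Equiv.symm_apply_eq, hfix p hp]
      simp only [Pi.add_apply, hsp, Pi.one_apply] at hq
      rw [show ∀ a : ZMod 2, a + a = 0 by decide] at hq
      exact zero_ne_one hq
  have huW : u ∈ W := by
    have := W.add_mem hwW (hcode huC)
    have h : w + (u + w) = u := by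
      funext p; show w p + (u p + w p) = u p
      generalize u p = x; generalize w p = y; revert x y; decide
    rwa [h] at this
  have hE : evenWords ≤ W := evenWords_le W (pairs_mem_of_small W hW (hus ▸ huW) hsne hscard)
  by_cases hodd : ∃ v ∈ W, v ∉ evenWords
  · refine Or.inr (Or.inr (Or.inr (Or.inr ((Submodule.eq_top_iff').2 fun z => ?_))))
    obtain ⟨v, hvW, hv⟩ := hodd
    by_cases hz : z ∈ evenWords
    · exact hE hz
    · have hzv : z - v ∈ evenWords := by
        rw [mem_evenWords] at hz hv ⊢
        simp only [Pi.sub_apply, Finset.sum_sub_distrib]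
        revert hz hv; generalize ∑ p, z p = a; generalize ∑ p, v p = b; revert a b; decide
      simpa using W.add_mem (hE hzv) hvW
  · push Not at hodd
    exact Or.inr (Or.inr (Or.inr (Or.inl (le_antisymm hodd hE))))

end Invariant

end Cfsg.Agent.H9
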