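import Cfsg.Prelude.Def_SporadicCombinatorics

/-!
# Monomial automorphisms of a code
-/

set_option autoImplicit false

namespace Cfsg.Agent.H9

variable {α F : Type*} [Field F] (C : Submodule F (α → F))

/-- The monomial map `(σ, c)` preserves the code `C`. -/
def MonPres (σ : Equiv.Perm α) (c : α → Fˣ) : Prop := ∀ x ∈ C, monomialMap σ c x ∈ C

theorem monPres_one : MonPres C 1 1 := by
  intro x hx
  convert hx
  funext i; simp [monomialMap, Equiv.Perm.one_def]

theorem monomialMap_comp (σ τ : Equiv.Perm α) (c d : α → Fˣ) (x : α → F) :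
    monomialMap σ c (monomialMap τ d x) = monomialMap (σ * τ) (fun i => c i * d (σ.symm i)) x := by
  funext i; simp [monomialMap, Equiv.Perm.mul_def, mul_assoc]

theorem MonPres.mul {σ τ : Equiv.Perm α} {c d : α → Fˣ} (h₁ : MonPres C σ c) (h₂ : MonPres C τ d) :
    MonPres C (σ * τ) (fun i => c i * d (σ.symm i)) := by
  intro x hx
  rw [← monomialMap_comp]
  exact h₁ _ (h₂ x hx)

/-- The monomial map as a linear map. -/
def monLin (σ : Equiv.Perm α) (c : α → Fˣ) : (α → F) →ₗ[F] (α → F) where
  toFun := monomialMap σ c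
  map_add' x y := by funext i; simp [monomialMap, mul_add]
  map_smul' a x := by funext i; simp [monomialMap]; ring

theorem monPres_of_span {s : Set (α → F)} (hs : C = Submodule.span F s) {σ : Equiv.Perm α}
    {c : α → Fˣ} (h : ∀ x ∈ s, monomialMap σ c x ∈ C) : MonPres C σ c := by
  intro x hx
  have h2 : C ≤ C.comap (monLin σ c) := by
    conv_lhs => rw [hs]
    exact Submodule.span_le.2 h
  exact h2 hx

theorem monomialMap_injective (σ : Equiv.Perm α) (c : α → Fˣ) :
    Function.Injective (monomialMap σ c) := by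
  intro x y h
  funext i
  have := congrFun h (σ i)
  simpa [monomialMap] using this

/-- Diagonal parts of monomial maps with one permutation part differ by an automorphism. -/
theorem MonPres.div [Finite α] [Finite F] {σ : Equiv.Perm α} {c d : α → Fˣ}
    (hc : MonPres C σ c) (hd : MonPres C σ d) : MonPres C 1 (c / d) := by
  intro y hy
  have hsurj : Function.Surjective (fun z : C => (⟨monomialMap σ d z.1, hd _ z.2⟩ : C)) :=
    Finite.injective_iff_surjective.1 fun z w h =>
      Subtype.ext (monomialMap_injective σ d (congrArg Subtype.val h))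
  obtain ⟨z, hz⟩ := hsurj ⟨y, hy⟩
  have hz' : monomialMap σ d z.1 = y := congrArg Subtype.val hz
  rw [← hz', monomialMap_comp, one_mul]
  convert hc z.1 z.2 using 2
  funext i; simp [Equiv.Perm.one_def]

/-- The group of permutation parts. -/
def permPart [Finite α] : Subgroup (Equiv.Perm α) :=
  { carrier := {σ | ∃ c, MonPres C σ c}
    one_mem' := ⟨1, monPres_one C⟩
    mul_mem' := fun ⟨_, h⟩ ⟨_, k⟩ => ⟨_, h.mul C k⟩
    inv_mem' := fun {σ} ⟨c, h⟩ => by
      have hp : ∀ n : ℕ, ∃ d, MonPres C (σ ^ n) d := by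
        intro n
        induction n with
        | zero => exact ⟨1, by rw [pow_zero]; exact monPres_one C⟩
        | succ n ih => obtain ⟨d, hd⟩ := ih; exact ⟨_, by rw [pow_succ]; exact hd.mul C h⟩
      obtain ⟨d, hd⟩ := hp (orderOf σ - 1)
      refine ⟨d, ?_⟩
      convert hd using 2
      refine inv_eq_of_mul_eq_one_right ?_
      rw [← pow_succ', Nat.sub_add_cancel (orderOf_pos σ), pow_orderOf_eq_one] }

theorem mem_permPart [Finite α] {σ : Equiv.Perm α} :
    σ ∈ permPart C ↔ ∃ c, MonPres C σ c := Iff.rfl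

/-- The order of the group of monomial automorphisms. -/
theorem natCard_monomial [Finite α] [Finite F] :
    Nat.card {f : Equiv.Perm α × (α → Fˣ) // MonPres C f.1 f.2} =
      Nat.card (permPart C) * Nat.card {d : α → Fˣ // MonPres C 1 d} := by
  classical
  rw [← Nat.card_prod]
  let s : permPart C → (α → Fˣ) := fun σ => σ.2.choose
  have hs : ∀ σ : permPart C, MonPres C σ.1 (s σ) := fun σ => σ.2.choose_spec
  refine Nat.card_congr
    { toFun := fun f => (⟨f.1.1, f.1.2, f.2⟩, ⟨f.1.2 / s ⟨f.1.1, f.1.2, f.2⟩, f.2.div C (hs _)⟩)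
      invFun := fun p => ⟨(p.1.1, p.2.1 * s p.1), by
        have := p.2.2.mul C (hs p.1)
        rw [one_mul] at this
        exact this⟩
      left_inv := fun f => by
        obtain ⟨⟨σ, c⟩, h⟩ := f
        simp
      right_inv := fun p => by
        obtain ⟨⟨σ, hσ⟩, ⟨d, hd⟩⟩ := p
        simp }

end Cfsg.Agent.H9
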