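import Mathlib

/-!
# Translations of a four-element set

A map of a four-element set which is involutive and is trivial once it has a fixed point is one of
the four translations of the Klein four group, so two of these commute.
-/

set_option autoImplicit false

namespace Cfsg.Agent.H9.Polar

/-- The translations of the Klein four group on `Fin 4`. -/
def kleinMap (k i : Fin 4) : Fin 4 :=
  ![![0, 1, 2, 3], ![1, 0, 3, 2], ![2, 3, 0, 1], ![3, 2, 1, 0]] k i

theorem kleinMap_classify : ∀ f : Fin 4 → Fin 4, (∀ i, f (f i) = i) →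
    (∀ i j, f i = i → f j = j) → ∃ k, ∀ i, f i = kleinMap k i := by
  decide +kernel

theorem kleinMap_comm : ∀ k l i, kleinMap k (kleinMap l i) = kleinMap l (kleinMap k i) := by
  decide +kernel

/-- A translation-like map of a set. -/
def IsTranslation {α : Type*} (E : Set α) (f : α → α) : Prop :=
  (∀ e ∈ E, f e ∈ E) ∧ (∀ e ∈ E, f (f e) = e) ∧ ∀ e ∈ E, f e = e → ∀ e' ∈ E, f e' = e'

theorem translation_mul {α : Type*} {E : Set α} (h4 : E.ncard = 4) {f g : α → α}
    (hf : IsTranslation E f) (hg : IsTranslation E g) :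
    IsTranslation E (f ∘ g) ∧ ∀ e ∈ E, f (g e) = g (f e) := by
  haveI : Finite E := (Set.finite_of_ncard_ne_zero (by rw [h4]; decide)).to_subtype
  obtain ⟨ε⟩ : Nonempty (E ≃ Fin 4) :=
    ⟨Finite.equivFinOfCardEq (by rw [Nat.card_coe_set_eq]; exact h4)⟩
  have rep : ∀ {f : α → α}, IsTranslation E f →
      ∃ k, ∀ e : E, f e = (ε.symm (kleinMap k (ε e)) : α) := by
    intro f hf
    let f' : Fin 4 → Fin 4 := fun i => ε ⟨f (ε.symm i : α), hf.1 _ (ε.symm i).2⟩
    have h' : ∀ i, (ε.symm (f' i) : α) = f (ε.symm i : α) := fun i => by simp [f']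
    obtain ⟨k, hk⟩ := kleinMap_classify f'
      (fun i => ε.symm.injective (Subtype.ext (by rw [h', h', hf.2.1 _ (ε.symm i).2])))
      (fun i j hi => ε.symm.injective (Subtype.ext (by
        rw [h', hf.2.2 _ (ε.symm i).2 (by rw [← h', hi]) _ (ε.symm j).2])))
    exact ⟨k, fun e => by rw [← hk, h', Equiv.symm_apply_apply]⟩
  obtain ⟨k, hk⟩ := rep hf
  obtain ⟨l, hl⟩ := rep hg
  have hc : ∀ e ∈ E, f (g e) = g (f e) := fun e he => by
    rw [hl ⟨e, he⟩, hk ⟨e, he⟩, hk, hl, Equiv.apply_symm_apply, Equiv.apply_symm_apply,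
      kleinMap_comm]
  refine ⟨⟨fun e he => hf.1 _ (hg.1 e he), fun e he => ?_, fun e he h e' he' => ?_⟩, hc⟩
  · show f (g (f (g e))) = e
    rw [← hc _ (hg.1 e he), hg.2.1 e he, hf.2.1 e he]
  · show f (g e') = e'
    have hfe : f e = g e := by
      have h1 := congrArg f h
      rw [show (f ∘ g) e = f (g e) from rfl, hf.2.1 _ (hg.1 e he)] at h1
      exact h1.symm
    have hkl : kleinMap k (ε ⟨e, he⟩) = kleinMap l (ε ⟨e, he⟩) := ε.symm.injective
      (Subtype.ext (by rw [← hk ⟨e, he⟩, ← hl ⟨e, he⟩]; exact hfe))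
    have key : ∀ k l i, kleinMap k i = kleinMap l i → k = l := by decide +kernel
    obtain rfl := key _ _ _ hkl
    have hfg : g e' = f e' := by rw [hl ⟨e', he'⟩, hk ⟨e', he'⟩]
    rw [hfg, hf.2.1 e' he']

end Cfsg.Agent.H9.Polar
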