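import Cfsg.Agent.H9.TernaryHexads
import Cfsg.Agent.H9.Monomial

/-!
# Monomial automorphisms of the ternary code
-/

set_option autoImplicit false

namespace Cfsg.Agent.H9

open Pointwise

/-- A sign as a unit. -/
def tUnit (a : ZMod 3) : (ZMod 3)ˣ := if a = 2 then -1 else 1

theorem ternary_monPres_of_rows {σ : Equiv.Perm ArrayPt} {c : ArrayPt → (ZMod 3)ˣ}
    (h : ∀ k, monomialMap σ c (ternRow k) ∈ ternaryGolayCode) :
    MonPres ternaryGolayCode σ c := by
  intro x hx
  rw [mem_ternaryGolay_iff] at hx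
  have hsum : x = ∑ k, x (ternInfo k) • ternRow k := by
    funext p; conv_lhs => rw [← hx]
    simp [ternWord]
  show monLin σ c x ∈ ternaryGolayCode
  rw [hsum, map_sum]
  refine Submodule.sum_mem _ fun k _ => ?_
  rw [map_smul]
  exact Submodule.smul_mem _ _ (h k)

/-- The permutation given by a list of images and a list of inverse images. -/
def ternPerm (L M : List (Fin 12)) : Equiv.Perm ArrayPt :=
  if h : (∀ p, aPt (M.getD (aIdx (aPt (L.getD (aIdx p).val 0))).val 0) = p) ∧
      (∀ p, aPt (L.getD (aIdx (aPt (M.getD (aIdx p).val 0))).val 0) = p) then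
    { toFun := fun p => aPt (L.getD (aIdx p).val 0)
      invFun := fun p => aPt (M.getD (aIdx p).val 0)
      left_inv := h.1
      right_inv := h.2 }
  else 1

/-- Test that a signed permutation preserves the code. -/
def ternCertOK (t : List (Fin 12) × List (Fin 12) × List (ZMod 3)) : Bool :=
  decide (∀ k : Fin 6,
    let y := monomialMap (ternPerm t.1 t.2.1) (fun p => tUnit (t.2.2.getD (aIdx p).val 1)) (ternRow k)
    ∀ p, ternWord (fun j => y (ternInfo j)) p = y p)

theorem ternChain_ok : ∀ lv ∈ ternChain, ∀ t ∈ lv, ternCertOK t = true := by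
  have h : (ternChain.all fun lv => lv.all ternCertOK) = true := by decide +kernel
  intro lv hlv t ht
  exact List.all_eq_true.1 (List.all_eq_true.1 h lv hlv) t ht

theorem ternPerm_mem_permPart {lv : List (List (Fin 12) × List (Fin 12) × List (ZMod 3))}
    (hlv : lv ∈ ternChain) {t : List (Fin 12) × List (Fin 12) × List (ZMod 3)} (ht : t ∈ lv) :
    ternPerm t.1 t.2.1 ∈ permPart ternaryGolayCode := by
  have h := ternChain_ok lv hlv t ht
  simp only [ternCertOK, decide_eq_true_eq] at h
  exact ⟨_, ternary_monPres_of_rows fun k => (mem_ternaryGolay_iff _).2 (funext (h k))⟩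

/-- The five base points. -/
def tBase (j : Fin 5) : ArrayPt := aPt ⟨j.val, by omega⟩

theorem ternChain_moves : ∀ k : Fin 5, ∀ p : ArrayPt, (∀ j < k, p ≠ tBase j) →
    ∃ t ∈ ternChain.getD k.val [], ternPerm t.1 t.2.1 (tBase k) = p ∧
      ∀ j < k, ternPerm t.1 t.2.1 (tBase j) = tBase j := by decide +kernel

theorem ternChain_getD : ∀ k : Fin 5, ternChain.getD k.val [] ∈ ternChain := by decide +kernel

theorem tBase_injective : Function.Injective tBase := by
  intro a b h; revert a b h; decide

/-- Any five distinct points are the images of the base points under a liftable permutation. -/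
theorem exists_liftable_map (f : Fin 5 ↪ ArrayPt) :
    ∃ σ ∈ permPart ternaryGolayCode, ∀ j, σ (tBase j) = f j := by
  suffices h : ∀ k, k ≤ 5 → ∃ σ ∈ permPart ternaryGolayCode, ∀ j : Fin 5, j.val < k → σ (tBase j) = f j by
    obtain ⟨σ, hσ, h⟩ := h 5 le_rfl
    exact ⟨σ, hσ, fun j => h j j.isLt⟩
  intro k
  induction k with
  | zero => exact fun _ => ⟨1, one_mem _, fun j hj => absurd hj (Nat.not_lt_zero _)⟩
  | succ n ih =>
    intro hn
    obtain ⟨σ, hσ, hσj⟩ := ih (by omega)
    set m : Fin 5 := ⟨n, by omega⟩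
    obtain ⟨t, ht, htm, htfix⟩ := ternChain_moves m (σ⁻¹ (f m)) (by
      intro j hj h
      have h1 : σ (tBase j) = f m := by rw [← h]; simp
      rw [hσj j hj] at h1
      exact absurd (f.injective h1) (ne_of_lt hj))
    refine ⟨σ * ternPerm t.1 t.2.1, mul_mem hσ (ternPerm_mem_permPart (ternChain_getD m) ht), ?_⟩
    intro j hj
    rcases Nat.lt_succ_iff_lt_or_eq.1 hj with hj | hj
    · rw [Equiv.Perm.mul_apply, htfix j hj, hσj j hj]
    · have hjm : j = m := Fin.ext hj
      rw [Equiv.Perm.mul_apply, hjm, htm]; simp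

theorem smul_hexad_mem {σ : Equiv.Perm ArrayPt} (hσ : σ ∈ permPart ternaryGolayCode)
    {h : Finset ArrayPt} (hh : h ∈ hexadSys) : σ • h ∈ hexadSys := by
  obtain ⟨c, hc⟩ := hσ
  obtain ⟨x, hx, rfl, h6⟩ := hh
  refine ⟨_, hc x hx, ?_, by rw [Finset.card_smul_finset, h6]⟩
  ext p
  rw [← Finset.inv_smul_mem_iff]
  simp [ternarySupport, monomialMap, Equiv.Perm.inv_def]

theorem permPart_le_aut : permPart ternaryGolayCode ≤ setSystemAut hexadSys := by
  intro σ hσ
  rw [MulAction.mem_stabilizer_iff]
  ext h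
  rw [Set.mem_smul_set_iff_inv_smul_mem]
  exact ⟨fun hh => by simpa using smul_hexad_mem hσ hh, smul_hexad_mem (inv_mem hσ)⟩

/-- The six points outside the hexad of the base points. -/
def outer : List (Fin 12) := [6, 7, 8, 9, 10, 11]

theorem hexad_pairs : (outer.all fun a => outer.all fun b => a == b ||
    let rel := hexadMasks.filter fun m => m &&& 4032 == (2 ^ a.val ||| 2 ^ b.val)
    outer.all fun c => outer.all fun d =>
      (2 ^ a.val ||| 2 ^ b.val) == (2 ^ c.val ||| 2 ^ d.val) ||
        rel.any fun m => !hexadMasks.contains (m &&& 63 ||| 2 ^ c.val ||| 2 ^ d.val)) = true := by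
  decide +kernel

theorem hexadMasks_63 : (63 : ℕ) ∈ hexadMasks := by decide +kernel

theorem aSet_63 : aSet 63 = insert (aPt 5) (Finset.univ.image tBase) := by decide +kernel

theorem hexadMasks_split : ∀ m ∈ hexadMasks, m = m &&& 63 ||| m &&& 4032 := by
  have h : (hexadMasks.all fun m => m == (m &&& 63 ||| m &&& 4032)) = true := by decide +kernel
  intro m hm
  simpa using List.all_eq_true.1 h m hm

theorem aut_smul_hexad {σ : Equiv.Perm ArrayPt} (hσ : σ ∈ setSystemAut hexadSys)
    {h : Finset ArrayPt} (hh : h ∈ hexadSys) : σ • h ∈ hexadSys := by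
  have := Set.smul_mem_smul_set (a := σ) hh
  rwa [MulAction.mem_stabilizer_iff.1 hσ] at this

/-- An automorphism of the hexads fixing the five base points is the identity. -/
theorem aut_eq_one {σ : Equiv.Perm ArrayPt} (hσ : σ ∈ setSystemAut hexadSys)
    (hfix : ∀ j, σ (tBase j) = tBase j) : σ = 1 := by
  classical
  set B : Finset ArrayPt := Finset.univ.image tBase
  have hB : B.card = 5 := by
    rw [Finset.card_image_of_injective _ tBase_injective]; rfl
  have h63 : aSet 63 ∈ hexadSys := mem_hexadSys_iff.2 ⟨63, hexadMasks_63, rfl⟩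
  have hsub : B ⊆ aSet 63 := aSet_63 ▸ Finset.subset_insert _ _
  have hsub' : B ⊆ σ • aSet 63 := by
    intro p hp
    obtain ⟨j, -, rfl⟩ := Finset.mem_image.1 hp
    exact Finset.mem_smul_finset.2 ⟨tBase j, hsub hp, hfix j⟩
  have heq : σ • aSet 63 = aSet 63 :=
    (hexadSys_isSteinerSystem.2 B hB).unique ⟨aut_smul_hexad hσ h63, hsub'⟩ ⟨h63, hsub⟩
  have h5 : σ (aPt 5) = aPt 5 := by
    have h : σ (aPt 5) ∈ aSet 63 := by
      rw [← heq]; exact Finset.mem_smul_finset.2 ⟨aPt 5, by rw [aSet_63]; simp, rfl⟩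
    rw [aSet_63, Finset.mem_insert, Finset.mem_image] at h
    rcases h with h | ⟨j, -, hj⟩
    · exact h
    · exfalso
      have : aPt 5 = tBase j := σ.injective (hj.symm.trans (hfix j).symm)
      exact (show ∀ i : Fin 5, aPt 5 ≠ tBase i by decide) j this
  have hin : ∀ p ∈ aSet 63, σ p = p := by
    intro p hp
    rw [aSet_63, Finset.mem_insert, Finset.mem_image] at hp
    rcases hp with rfl | ⟨j, -, rfl⟩
    exacts [h5, hfix j]
  have hout : ∀ a ∈ outer, aIdx (σ (aPt a)) ∈ outer := by
    intro a ha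
    have h1 : aPt a ∉ aSet 63 := by
      have : ∀ a ∈ outer, (63 : ℕ).testBit a.val = false := by decide
      rw [mem_aSet, aIdx_aPt, this a ha]; simp
    have h2 : σ (aPt a) ∉ aSet 63 := by
      intro h
      have := hin _ h
      exact h1 (σ.injective this ▸ h)
    have h3 : ∀ n : Fin 12, (63 : ℕ).testBit n.val = true ∨ n ∈ outer := by decide
    exact (h3 _).resolve_left fun h => h2 (mem_aSet.2 h)
  have hedge : ∀ a ∈ outer, ∀ b ∈ outer, a ≠ b →
      σ (aPt a) = aPt a ∨ σ (aPt a) = aPt b := by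
    intro a ha b hb hab
    have h := List.all_eq_true.1 (List.all_eq_true.1 hexad_pairs a ha) b hb
    simp only [Bool.or_eq_true, beq_iff_eq, hab, false_or] at h
    have h' := List.all_eq_true.1 (List.all_eq_true.1 h _ (hout a ha)) _ (hout b hb)
    simp only [Bool.or_eq_true, beq_iff_eq, List.any_eq_true, List.mem_filter,
      Bool.not_eq_true', List.contains_iff_mem] at h'
    rcases h' with h' | ⟨m, ⟨hm, hmab⟩, hnot⟩
    · have := congrArg aSet h'
      simp only [aSet_or, aSet_two_pow, aPt_aIdx] at this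
      have hmem : σ (aPt a) ∈ ({aPt a} ∪ {aPt b} : Finset ArrayPt) := by rw [this]; simp
      simpa using hmem
    · exfalso
      have hh := aut_smul_hexad hσ (mem_hexadSys_iff.2 ⟨m, hm, rfl⟩)
      rw [hexadMasks_split m hm, hmab, aSet_or, aSet_or, aSet_two_pow, aSet_two_pow] at hh
      have hQ : σ • aSet (m &&& 63) = aSet (m &&& 63) := by
        have hq : ∀ p ∈ aSet (m &&& 63), σ p = p := fun p hp => hin p (by
          rw [aSet_and, Finset.mem_inter] at hp; exact hp.2)
        ext p
        rw [Finset.mem_smul_finset]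
        constructor
        · rintro ⟨q, hq', rfl⟩; show σ q ∈ _; rw [hq q hq']; exact hq'
        · intro hp; exact ⟨p, hp, hq p hp⟩
      rw [Finset.smul_finset_union, Finset.smul_finset_union, hQ, Finset.smul_finset_singleton,
        Finset.smul_finset_singleton, Equiv.Perm.smul_def, Equiv.Perm.smul_def,
        ← Finset.union_assoc] at hh
      obtain ⟨m', hm', hm'eq⟩ := mem_hexadSys_iff.1 hh
      have hval : m' = m &&& 63 ||| 2 ^ (aIdx (σ (aPt a))).val ||| 2 ^ (aIdx (σ (aPt b))).val := by
        refine aSet_inj (hexadMasks_facts.1 m' hm') ?_ ?_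
        · have hp : ∀ n : Fin 12, 2 ^ n.val < 2 ^ 12 := fun n =>
            Nat.pow_lt_pow_right (by norm_num) n.isLt
          have h63 : m &&& 63 < 2 ^ 12 := lt_of_le_of_lt Nat.and_le_right (by norm_num)
          exact Nat.or_lt_two_pow (Nat.or_lt_two_pow h63 (hp _)) (hp _)
        · rw [hm'eq, aSet_or, aSet_or, aSet_two_pow, aSet_two_pow, aPt_aIdx, aPt_aIdx]
      rw [hval] at hm'
      simp [hm'] at hnot
  ext1 p
  show σ p = p
  by_cases hp : p ∈ aSet 63
  · exact hin p hp
  · have ha : aIdx p ∈ outer := by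
      have h3 : ∀ n : Fin 12, (63 : ℕ).testBit n.val = true ∨ n ∈ outer := by decide
      exact (h3 _).resolve_left fun h => hp (mem_aSet.2 h)
    obtain ⟨b, hb, c, hc, hab, hac, hbc⟩ : ∃ b ∈ outer, ∃ c ∈ outer,
        aIdx p ≠ b ∧ aIdx p ≠ c ∧ b ≠ c := by
      revert ha; generalize aIdx p = a; revert a; decide
    have h1 := hedge _ ha b hb hab
    have h2 := hedge _ ha c hc hac
    rw [aPt_aIdx] at h1 h2
    rcases h1 with h1 | h1
    · exact h1
    rcases h2 with h2 | h2
    · exact h2
    exact absurd (by rw [← aIdx_aPt b, ← h1, h2, aIdx_aPt]) hbc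

theorem permPart_eq_aut : permPart ternaryGolayCode = setSystemAut hexadSys := by
  refine le_antisymm permPart_le_aut fun σ hσ => ?_
  obtain ⟨τ, hτ, hτb⟩ := exists_liftable_map
    ⟨fun j => σ (tBase j), σ.injective.comp tBase_injective⟩
  have h : τ⁻¹ * σ = 1 := by
    refine aut_eq_one (mul_mem (inv_mem (permPart_le_aut hτ)) hσ) fun j => ?_
    rw [Equiv.Perm.mul_apply, show σ (tBase j) = τ (tBase j) from (hτb j).symm]
    simp
  rw [inv_mul_eq_one] at h
  exact h ▸ hτ

theorem natCard_permPart_ternary : Nat.card (permPart ternaryGolayCode) = 95040 := by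
  have e : permPart ternaryGolayCode ≃ (Fin 5 ↪ ArrayPt) :=
    Equiv.ofBijective
      (fun σ => ⟨fun j => σ.1 (tBase j), σ.1.injective.comp tBase_injective⟩)
      ⟨fun a b h => Subtype.ext (by
        have h1 : b.1⁻¹ * a.1 = 1 := by
          refine aut_eq_one (permPart_le_aut (mul_mem (inv_mem b.2) a.2)) fun j => ?_
          have := DFunLike.congr_fun h j
          simp only [Function.Embedding.coeFn_mk] at this
          rw [Equiv.Perm.mul_apply, this]; simp
        exact (inv_mul_eq_one.1 h1).symm),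
      fun f => by
        obtain ⟨σ, hσ, h⟩ := exists_liftable_map f
        exact ⟨⟨σ, hσ⟩, Function.Embedding.ext h⟩⟩
  rw [Nat.card_congr e, Nat.card_eq_fintype_card, Fintype.card_embedding_eq]
  rfl

theorem ternary_diag (c : ArrayPt → (ZMod 3)ˣ) (h : MonPres ternaryGolayCode 1 c) :
    (∀ p, c p = 1) ∨ (∀ p, c p = -1) := by
  have hrow : ∀ k p, ternRow k p ≠ 0 → c p = c (ternInfo k) := by
    intro k p hp
    set y := monomialMap 1 c (ternRow k)
    have hy := (mem_ternaryGolay_iff y).1 (h _ ((isTernaryGolayWord_iff _).2 (ternRow_ok k)))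
    have hδ : ∀ j k, ternRow k (ternInfo j) = if j = k then 1 else 0 := by decide +kernel
    have hyp : y p = (c (ternInfo k) : ZMod 3) * ternRow k p := by
      rw [← congrFun hy p]
      simp [ternWord, y, monomialMap, Equiv.Perm.one_def, hδ]
    simp only [y, monomialMap, Equiv.Perm.one_def, Equiv.refl_symm, Equiv.refl_apply] at hyp
    exact Units.ext (mul_right_cancel₀ hp hyp)
  have hcover : ∀ p, ∃ k, ternRow k p ≠ 0 := by decide +kernel
  have hlink : ∀ k, ternRow k (aPt 5) ≠ 0 ∨ (ternRow k (aPt 8) ≠ 0 ∧ ternRow 0 (aPt 8) ≠ 0) := by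
    decide +kernel
  have hinfo : ∀ k, c (ternInfo k) = c (ternInfo 0) := by
    have h05 : ternRow 0 (aPt 5) ≠ 0 := by decide +kernel
    intro k
    rcases hlink k with h5 | ⟨h8, h08⟩
    · rw [← hrow k _ h5, hrow 0 _ h05]
    · rw [← hrow k _ h8, hrow 0 _ h08]
  have hall : ∀ p, c p = c (ternInfo 0) := fun p => by
    obtain ⟨k, hk⟩ := hcover p
    rw [hrow k p hk, hinfo]
  have hu : ∀ u : (ZMod 3)ˣ, u = 1 ∨ u = -1 := by decide
  rcases hu (c (ternInfo 0)) with h | h
  exacts [Or.inl fun p => (hall p).trans h, Or.inr fun p => (hall p).trans h]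

theorem natCard_ternary_monomial :
    Nat.card {f : Equiv.Perm ArrayPt × (ArrayPt → (ZMod 3)ˣ) //
      MonPres ternaryGolayCode f.1 f.2} = 190080 := by
  rw [natCard_monomial, natCard_permPart_ternary]
  have hd : Nat.card {d : ArrayPt → (ZMod 3)ˣ // MonPres ternaryGolayCode 1 d} =
      Nat.card (ZMod 3)ˣ := by
    refine Nat.card_congr
      { toFun := fun d => d.1 (0, 0)
        invFun := fun u => ⟨fun _ => u, fun x hx => by
          have : monomialMap 1 (fun _ => u) x = (u : ZMod 3) • x := by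
            funext i; simp [monomialMap, Equiv.Perm.one_def]
          rw [this]; exact Submodule.smul_mem _ _ hx⟩
        left_inv := fun d => Subtype.ext (funext fun p => ?_)
        right_inv := fun u => rfl }
    rcases ternary_diag d.1 d.2 with h | h <;> simp [h]
  rw [hd, Nat.card_units, Nat.card_zmod]

end Cfsg.Agent.H9
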