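import Cfsg.Agent.H9.TernaryBits

/-!
# The ternary code of length 12: membership, weights, self-orthogonality
-/

set_option autoImplicit false

namespace Cfsg.Agent.H9

/-- Combination of basis words. -/
def ternWord (a : Fin 6 → ZMod 3) (p : ArrayPt) : ZMod 3 := ∑ k, a k * ternRow k p

/-- The conditions of the code with `s` read off from the first column, evaluated at the
tetracode word with coefficients `(a, b)`. -/
def ternCond (x : ArrayPt → ZMod 3) (a b : ZMod 3) : Bool :=
  decide (∑ i : Fin 4, x (i, a * ![0, 1, 1, 1] i + b * ![1, 0, 1, 2] i) = -∑ r : ZMod 3, x (0, r))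

theorem mem_tetracode_iff (t : Fin 4 → ZMod 3) :
    t ∈ tetracode ↔ ∃ a b : ZMod 3, t = fun i => a * ![0, 1, 1, 1] i + b * ![1, 0, 1, 2] i := by
  rw [tetracode, Submodule.mem_span_pair]
  constructor
  · rintro ⟨a, b, rfl⟩; exact ⟨a, b, by funext i; fin_cases i <;> simp⟩
  · rintro ⟨a, b, rfl⟩; exact ⟨a, b, by funext i; fin_cases i <;> simp⟩

theorem isTernaryGolayWord_iff (x : ArrayPt → ZMod 3) :
    IsTernaryGolayWord x ↔
      (∀ i : Fin 4, ∑ r : ZMod 3, x (i, r) = ∑ r : ZMod 3, x (0, r)) ∧
        ∀ a b, ternCond x a b = true := by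
  constructor
  · rintro ⟨s, h1, h2⟩
    refine ⟨fun i => by rw [h1, h1], fun a b => ?_⟩
    simp only [ternCond, decide_eq_true_eq, h1 0, neg_neg]
    exact h2 _ ((mem_tetracode_iff _).2 ⟨a, b, rfl⟩)
  · rintro ⟨h1, h2⟩
    refine ⟨-∑ r : ZMod 3, x (0, r), fun i => by rw [h1 i, neg_neg], fun t ht => ?_⟩
    obtain ⟨a, b, rfl⟩ := (mem_tetracode_iff t).1 ht
    simpa [ternCond] using h2 a b

theorem ternRow_ok : ∀ k, (∀ i : Fin 4, ∑ r : ZMod 3, ternRow k (i, r) = ∑ r : ZMod 3, ternRow k (0, r)) ∧
    ∀ a b, ternCond (ternRow k) a b = true := by decide +kernel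

theorem ternWord_mem (a : Fin 6 → ZMod 3) : ternWord a ∈ ternaryGolayCode := by
  have : ternWord a = ∑ k, a k • ternRow k := by funext p; simp [ternWord]
  rw [this]
  exact Submodule.sum_mem _ fun k _ =>
    Submodule.smul_mem _ _ ((isTernaryGolayWord_iff _).2 (ternRow_ok k))

theorem ternWord_info (a : Fin 6 → ZMod 3) (k : Fin 6) : ternWord a (ternInfo k) = a k := by
  have h : ∀ j k, ternRow j (ternInfo k) = if j = k then 1 else 0 := by decide +kernel
  simp [ternWord, h]

theorem ternWord_injective : Function.Injective ternWord := fun a b h =>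
  funext fun k => by rw [← ternWord_info a k, h, ternWord_info]

theorem ternPos_cases : ∀ p, (∃ k, ternInfo k = p) ∨ ∃ k, ternOther k = p := by decide +kernel

theorem ternSpread_other (a : Fin 6 → ZMod 3) (k : Fin 6) : ternSpread a (ternOther k) = a k := by
  fin_cases k <;> rfl

theorem ternSpread_info (a : Fin 6 → ZMod 3) (k : Fin 6) : ternSpread a (ternInfo k) = 0 := by
  fin_cases k <;> rfl

theorem ternKernel_aux : ∀ a b c d e f : ZMod 3,
    (∀ i : Fin 4, ∑ r : ZMod 3, ternSpread ![a, b, c, d, e, f] (i, r) =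
      ∑ r : ZMod 3, ternSpread ![a, b, c, d, e, f] (0, r)) →
    (∀ u v, ternCond (ternSpread ![a, b, c, d, e, f]) u v = true) →
    a = 0 ∧ b = 0 ∧ c = 0 ∧ d = 0 ∧ e = 0 ∧ f = 0 := by decide +kernel

theorem eq_zero_of_info {y : ArrayPt → ZMod 3} (hy : y ∈ ternaryGolayCode)
    (h0 : ∀ k, y (ternInfo k) = 0) : y = 0 := by
  have hlist : (fun k => y (ternOther k)) = ![y (ternOther 0), y (ternOther 1), y (ternOther 2),
      y (ternOther 3), y (ternOther 4), y (ternOther 5)] := by
    funext k; fin_cases k <;> rfl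
  have hs : ternSpread (fun k => y (ternOther k)) = y := by
    funext p
    rcases ternPos_cases p with ⟨k, rfl⟩ | ⟨k, rfl⟩
    · rw [ternSpread_info, h0]
    · rw [ternSpread_other]
  obtain ⟨h1, h2⟩ := (isTernaryGolayWord_iff y).1 hy
  rw [hlist] at hs
  rw [← hs] at h1 h2
  obtain ⟨a, b, c, d, e, f⟩ := ternKernel_aux _ _ _ _ _ _ h1 h2
  funext p
  rcases ternPos_cases p with ⟨k, rfl⟩ | ⟨k, rfl⟩
  · exact h0 k
  · fin_cases k
    exacts [a, b, c, d, e, f]

/-- The words of the code. -/
theorem mem_ternaryGolay_iff (x : ArrayPt → ZMod 3) :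
    x ∈ ternaryGolayCode ↔ ternWord (fun k => x (ternInfo k)) = x := by
  constructor
  · intro hx
    refine sub_eq_zero.1 (eq_zero_of_info (Submodule.sub_mem _ (ternWord_mem _) hx) fun k => ?_)
    simp [ternWord_info]
  · intro h; rw [← h]; exact ternWord_mem _

/-- The coefficient vectors, as a list. -/
def ternCoeffs : List (Fin 6 → ZMod 3) :=
  ([0, 1, 2] : List (ZMod 3)).flatMap fun a => ([0, 1, 2] : List (ZMod 3)).flatMap fun b =>
    ([0, 1, 2] : List (ZMod 3)).flatMap fun c => ([0, 1, 2] : List (ZMod 3)).flatMap fun d =>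
      ([0, 1, 2] : List (ZMod 3)).flatMap fun e => ([0, 1, 2] : List (ZMod 3)).map fun f =>
        ![a, b, c, d, e, f]

theorem mem_ternCoeffs (v : Fin 6 → ZMod 3) : v ∈ ternCoeffs := by
  have h : ∀ z : ZMod 3, z ∈ ([0, 1, 2] : List (ZMod 3)) := by decide
  simp only [ternCoeffs, List.mem_flatMap, List.mem_map]
  refine ⟨v 0, h _, v 1, h _, v 2, h _, v 3, h _, v 4, h _, v 5, h _, ?_⟩
  funext k; fin_cases k <;> rfl

theorem ternCoeffs_length : ternCoeffs.length = 729 := by decide +kernel

theorem ternCoeffs_toFinset : ternCoeffs.toFinset = Finset.univ :=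
  Finset.eq_univ_of_forall fun v => List.mem_toFinset.2 (mem_ternCoeffs v)

theorem ternCoeffs_nodup : ternCoeffs.Nodup := by
  rw [← List.dedup_eq_self]
  refine (List.dedup_sublist _).eq_of_length ?_
  rw [← List.card_toFinset, ternCoeffs_toFinset, ternCoeffs_length, Finset.card_univ]
  simp

/-- The mask of the support of a word. -/
def ternMask (x : ArrayPt → ZMod 3) : ℕ :=
  (List.finRange 12).foldr (fun n acc => (if x (aPt n) = 0 then 0 else 2 ^ n.val) ||| acc) 0

/-- An entry of a word, computed with natural numbers. -/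
def ternEntry (v : Fin 6 → ZMod 3) (n : Fin 12) : ℕ :=
  let r := ternColsNat.getD n.val []
  ((v 0).val * r.getD 0 0 + (v 1).val * r.getD 1 0 + (v 2).val * r.getD 2 0 +
    (v 3).val * r.getD 3 0 + (v 4).val * r.getD 4 0 + (v 5).val * r.getD 5 0) % 3

theorem ternColsNat_spec : ∀ n : Fin 12, ∀ k : Fin 6,
    ternRowsN k n = (((ternColsNat.getD n.val []).getD k.val 0 : ℕ) : ZMod 3) := by decide +kernel

theorem ternWord_aPt (v : Fin 6 → ZMod 3) (n : Fin 12) :
    ternWord v (aPt n) = (ternEntry v n : ZMod 3) := by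
  simp only [ternWord, ternRow, aIdx_aPt, Fin.sum_univ_six, ternEntry, ZMod.natCast_mod,
    Nat.cast_add, Nat.cast_mul, ZMod.natCast_zmod_val, ternColsNat_spec]
  rfl

theorem ternEntry_lt (v : Fin 6 → ZMod 3) (n : Fin 12) : ternEntry v n < 3 :=
  Nat.mod_lt _ (by norm_num)

theorem ternWord_aPt_eq_zero (v : Fin 6 → ZMod 3) (n : Fin 12) :
    ternWord v (aPt n) = 0 ↔ ternEntry v n = 0 := by
  rw [ternWord_aPt, ZMod.natCast_eq_zero_iff]
  exact ⟨fun h => Nat.eq_zero_of_dvd_of_lt h (ternEntry_lt v n), fun h => by simp [h]⟩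

/-- The weight of the word with given coefficients. -/
def ternWtV (v : Fin 6 → ZMod 3) : ℕ := (List.finRange 12).countP fun n => ternEntry v n != 0

/-- The weight of a word. -/
def ternWt (x : ArrayPt → ZMod 3) : ℕ := (List.finRange 12).countP fun n => x (aPt n) != 0

theorem card_ternarySupport (x : ArrayPt → ZMod 3) : (ternarySupport x).card = ternWt x := by
  rw [ternWt, List.countP_eq_length_filter,
    ← List.toFinset_card_of_nodup ((List.nodup_finRange 12).filter _), List.toFinset_filter]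
  refine Finset.card_bij' (fun p _ => aIdx p) (fun n _ => aPt n) ?_ ?_
    (fun p _ => aPt_aIdx p) (fun n _ => aIdx_aPt n)
  · intro p hp
    simpa [ternarySupport, aPt_aIdx] using hp
  · intro n hn
    simpa [ternarySupport] using hn

theorem ternWt_ternWord (v : Fin 6 → ZMod 3) : ternWt (ternWord v) = ternWtV v := by
  refine List.countP_congr fun n _ => ?_
  simp only [bne_iff_ne, ne_eq, ternWord_aPt_eq_zero]

theorem ternWtV_all : (ternCoeffs.all fun v =>
    (ternWtV v == 6 || ternWtV v == 9 || ternWtV v == 12 ||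
      decide (v = ![0, 0, 0, 0, 0, 0]))) = true := by decide +kernel

theorem ternWtV_counts :
    [6, 9, 12].map (fun k => ternCoeffs.countP fun v => ternWtV v == k) = [264, 440, 24] := by
  decide +kernel

theorem ternWt_counts :
    [6, 9, 12].map (fun k => ternCoeffs.countP fun v => ternWt (ternWord v) == k) = [264, 440, 24] := by
  simp only [ternWt_ternWord]; exact ternWtV_counts

theorem ternary_weight {x : ArrayPt → ZMod 3} (hx : x ∈ ternaryGolayCode) (h0 : x ≠ 0) :
    (ternarySupport x).card = 6 ∨ (ternarySupport x).card = 9 ∨ (ternarySupport x).card = 12 := by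
  rw [mem_ternaryGolay_iff] at hx
  have h := List.all_eq_true.1 ternWtV_all _ (mem_ternCoeffs fun k => x (ternInfo k))
  simp only [← ternWt_ternWord, hx, Bool.or_eq_true, beq_iff_eq, decide_eq_true_eq] at h
  rw [card_ternarySupport]
  rcases h with ((h | h) | h) | h
  · exact Or.inl h
  · exact Or.inr (Or.inl h)
  · exact Or.inr (Or.inr h)
  · exfalso
    apply h0
    rw [← hx, h]
    funext p
    simp only [ternWord, Pi.zero_apply]
    refine Finset.sum_eq_zero fun k _ => ?_
    fin_cases k <;> exact zero_mul _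

theorem ternary_ncard (k : ℕ) :
    {x : ArrayPt → ZMod 3 | x ∈ ternaryGolayCode ∧ (ternarySupport x).card = k}.ncard =
      ternCoeffs.countP fun v => ternWt (ternWord v) == k := by
  classical
  rw [List.countP_eq_length_filter, ← List.toFinset_card_of_nodup (ternCoeffs_nodup.filter _),
    List.toFinset_filter, ← Set.ncard_coe_finset,
    ← Set.ncard_image_of_injective _ ternWord_injective]
  congr 1
  ext x
  simp only [Set.mem_ofPred_eq, Set.mem_image, Finset.coe_filter, List.mem_toFinset, beq_iff_eq,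
    card_ternarySupport]
  constructor
  · rintro ⟨hx, hk⟩
    rw [mem_ternaryGolay_iff] at hx
    exact ⟨_, ⟨mem_ternCoeffs _, by rw [hx]; exact hk⟩, hx⟩
  · rintro ⟨v, ⟨-, hv⟩, rfl⟩
    exact ⟨ternWord_mem v, hv⟩

theorem ternary_natCard : Nat.card ↥ternaryGolayCode = 729 := by
  have e : (Fin 6 → ZMod 3) ≃ ↥ternaryGolayCode :=
    { toFun := fun a => ⟨ternWord a, ternWord_mem a⟩
      invFun := fun x k => x.1 (ternInfo k)
      left_inv := fun a => funext fun k => ternWord_info a k
      right_inv := fun x => Subtype.ext ((mem_ternaryGolay_iff x.1).1 x.2) }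
  rw [← Nat.card_congr e]
  simp [Nat.card_eq_fintype_card]

theorem ternRow_orth : ∀ j k, ∑ p : ArrayPt, ternRow j p * ternRow k p = 0 := by decide +kernel

theorem ternary_orth {x y : ArrayPt → ZMod 3} (hx : x ∈ ternaryGolayCode)
    (hy : y ∈ ternaryGolayCode) : ∑ p, x p * y p = 0 := by
  rw [mem_ternaryGolay_iff] at hx hy
  rw [← hx, ← hy]
  simp only [ternWord, Finset.sum_mul, Finset.mul_sum]
  rw [Finset.sum_comm]
  refine Finset.sum_eq_zero fun j _ => ?_
  rw [Finset.sum_comm]
  refine Finset.sum_eq_zero fun k _ => ?_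
  have := ternRow_orth j k
  calc ∑ p, x (ternInfo k) * ternRow k p * (y (ternInfo j) * ternRow j p)
      = x (ternInfo k) * y (ternInfo j) * ∑ p, ternRow j p * ternRow k p := by
        rw [Finset.mul_sum]; exact Finset.sum_congr rfl fun p _ => by ring
    _ = 0 := by rw [this, mul_zero]

end Cfsg.Agent.H9
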