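import Cfsg.Agent.H9.TernaryGolay
import Cfsg.Agent.H9.TernaryWitness

/-!
# The hexads of the ternary code form an S(5, 6, 12)
-/

set_option autoImplicit false
set_option linter.constructorNameAsVariable false

namespace Cfsg.Agent.H9

/-- The point set encoded by a mask. -/
def aSet (m : ℕ) : Finset ArrayPt := Finset.univ.filter fun p => m.testBit (aIdx p).val

theorem mem_aSet {m : ℕ} {p : ArrayPt} : p ∈ aSet m ↔ m.testBit (aIdx p).val = true := by
  simp [aSet]

/-- The hexads. -/
def hexadSys : Set (Finset ArrayPt) :=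
  {h | ∃ x ∈ ternaryGolayCode, ternarySupport x = h ∧ h.card = 6}

theorem testBit_foldr_or (f : Fin 12 → ℕ) (j : ℕ) : ∀ l : List (Fin 12),
    (l.foldr (fun n acc => f n ||| acc) 0).testBit j = l.any fun n => (f n).testBit j
  | [] => by simp
  | a :: l => by simp [testBit_foldr_or f j l]

theorem aSet_ternMask (x : ArrayPt → ZMod 3) : aSet (ternMask x) = ternarySupport x := by
  ext p
  rw [mem_aSet, ternMask, testBit_foldr_or, List.any_eq_true]
  constructor
  · rintro ⟨n, -, hn⟩
    by_cases h : x (aPt n) = 0
    · simp [h] at hn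
    · rw [if_neg h, Nat.testBit_two_pow, decide_eq_true_eq] at hn
      rw [← aPt_aIdx p, ← Fin.ext hn]
      simp [ternarySupport, h]
  · intro hp
    have hp' : x p ≠ 0 := by simpa [ternarySupport] using hp
    exact ⟨aIdx p, List.mem_finRange _, by rw [aPt_aIdx, if_neg hp']; simp⟩

/-- The support mask of the word with given coefficients. -/
def ternMaskV (v : Fin 6 → ZMod 3) : ℕ :=
  (List.finRange 12).foldr (fun n acc => (if ternEntry v n = 0 then 0 else 2 ^ n.val) ||| acc) 0

theorem ternMask_ternWord (v : Fin 6 → ZMod 3) : ternMask (ternWord v) = ternMaskV v := by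
  rw [ternMask, ternMaskV]
  refine congrArg (fun f => List.foldr f 0 (List.finRange 12)) ?_
  funext n acc
  simp only [ternWord_aPt_eq_zero]

theorem hexadWitness_spec :
    hexadWitness.map ternMaskV = hexadMasks ∧ (∀ v ∈ hexadWitness, ternWtV v = 6) := by
  refine ⟨by decide +kernel, fun v hv => ?_⟩
  have h : (hexadWitness.all fun v => ternWtV v == 6) = true := by decide +kernel
  simpa using List.all_eq_true.1 h v hv

theorem hexadWitness_mem {v : Fin 6 → ZMod 3} (hv : v ∈ hexadWitness) :
    (ternarySupport (ternWord v)).card = 6 ∧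
      ternarySupport (ternWord v) = aSet (ternMaskV v) := by
  refine ⟨?_, by rw [← ternMask_ternWord, aSet_ternMask]⟩
  rw [card_ternarySupport, ternWt_ternWord]
  exact hexadWitness_spec.2 v hv

theorem hexadMasks_facts : (∀ m ∈ hexadMasks, m < 4096) ∧ hexadMasks.length = 132 := by
  refine ⟨fun m hm => ?_, by decide +kernel⟩
  have h : (hexadMasks.all fun m => decide (m < 4096)) = true := by decide +kernel
  simpa using List.all_eq_true.1 h m hm

theorem hexadMasks_nodup : hexadMasks.Nodup := by
  have h : hexadMasks.IsChain (· < ·) := by decide +kernel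
  exact (List.isChain_iff_pairwise.1 h).imp ne_of_lt

theorem aSet_inj {a b : ℕ} (ha : a < 4096) (hb : b < 4096) (h : aSet a = aSet b) : a = b := by
  apply Nat.eq_of_testBit_eq
  intro i
  by_cases hi : i < 12
  · have := congrArg (fun s => decide (aPt ⟨i, hi⟩ ∈ s)) h
    simpa [mem_aSet, aIdx_aPt] using this
  · have hle : 4096 ≤ 2 ^ i :=
      le_trans (by norm_num) (Nat.pow_le_pow_right (by norm_num : 0 < 2) (Nat.le_of_not_lt hi))
    rw [Nat.testBit_lt_two_pow (lt_of_lt_of_le ha hle), Nat.testBit_lt_two_pow (lt_of_lt_of_le hb hle)]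

theorem aSet_and (a b : ℕ) : aSet (a &&& b) = aSet a ∩ aSet b := by
  ext p; simp [mem_aSet]

theorem mem_hexadSys_iff {h : Finset ArrayPt} :
    h ∈ hexadSys ↔ ∃ m ∈ hexadMasks, aSet m = h := by
  classical
  have hne : ∀ e ∈ ({1, 2} : Finset (ZMod 3)), e ≠ 0 := by decide
  have hsupp : ∀ e : ZMod 3, e ≠ 0 → ∀ w : ArrayPt → ZMod 3,
      ternarySupport (e • w) = ternarySupport w := by
    intro e he w; ext p
    simp only [ternarySupport, Finset.mem_filter, Finset.mem_univ, true_and, Pi.smul_apply,
      smul_eq_mul]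
    have : ∀ e a : ZMod 3, e ≠ 0 → (e * a ≠ 0 ↔ a ≠ 0) := by decide
    exact this e (w p) he
  constructor
  · rintro ⟨x, hx, rfl, h6⟩
    -- the words `± ternWord v` exhaust the words of weight six
    set W : Finset (ArrayPt → ZMod 3) :=
      (hexadWitness.toFinset ×ˢ ({1, 2} : Finset (ZMod 3))).image fun t => t.2 • ternWord t.1
    have hsub : (W : Set (ArrayPt → ZMod 3)) ⊆
        {x | x ∈ ternaryGolayCode ∧ (ternarySupport x).card = 6} := by
      intro w hw
      simp only [W, Finset.coe_image, Set.mem_image, Finset.mem_coe, Finset.mem_product,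
        List.mem_toFinset] at hw
      obtain ⟨⟨v, e⟩, ⟨hv, he⟩, rfl⟩ := hw
      exact ⟨Submodule.smul_mem _ _ (ternWord_mem v),
        by rw [hsupp e (hne e he)]; exact (hexadWitness_mem hv).1⟩
    have hndm : (hexadWitness.map ternMaskV).Nodup := hexadWitness_spec.1.symm ▸ hexadMasks_nodup
    have hlen : hexadWitness.length = 132 := by
      rw [← hexadMasks_facts.2, ← hexadWitness_spec.1, List.length_map]
    have hcard : W.card = 264 := by
      rw [Finset.card_image_of_injOn, Finset.card_product,
        List.toFinset_card_of_nodup hndm.of_map, hlen]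
      · rfl
      · rintro ⟨v, e⟩ hv ⟨v', e'⟩ hv' heq
        simp only [Finset.coe_product, Set.mem_prod, Finset.mem_coe, List.mem_toFinset] at hv hv'
        simp only at heq
        have h1 : aSet (ternMaskV v) = aSet (ternMaskV v') := by
          rw [← (hexadWitness_mem hv.1).2, ← (hexadWitness_mem hv'.1).2,
            ← hsupp e (hne e hv.2) (ternWord v), heq, hsupp e' (hne e' hv'.2)]
        have hmem : ∀ u ∈ hexadWitness, ternMaskV u < 4096 := fun u hu =>
          hexadMasks_facts.1 _ (hexadWitness_spec.1 ▸ List.mem_map_of_mem hu)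
        have h2 := List.inj_on_of_nodup_map hndm hv.1 hv'.1
          (aSet_inj (hmem v hv.1) (hmem v' hv'.1) h1)
        subst h2
        obtain ⟨p, hp⟩ := Finset.card_pos.1
          (by rw [(hexadWitness_mem hv.1).1]; norm_num : 0 < (ternarySupport (ternWord v)).card)
        have hp' : ternWord v p ≠ 0 := by simpa [ternarySupport] using hp
        have h3 := congrFun heq p
        simp only [Pi.smul_apply, smul_eq_mul] at h3
        rw [mul_right_cancel₀ hp' h3]
    have h264 := ternWt_counts
    simp only [List.map_cons, List.map_nil, List.cons.injEq, and_true] at h264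
    have heqW := Set.eq_of_subset_of_ncard_le hsub
      (by rw [Set.ncard_coe_finset, hcard, ternary_ncard, h264.1]) (Set.Finite.subset (Set.finite_univ (α := ArrayPt → ZMod 3)) (Set.subset_univ _))
    have hxW : x ∈ (W : Set (ArrayPt → ZMod 3)) := by rw [heqW]; exact ⟨hx, h6⟩
    simp only [W, Finset.coe_image, Set.mem_image, Finset.mem_coe, Finset.mem_product,
      List.mem_toFinset] at hxW
    obtain ⟨⟨v, e⟩, ⟨hv, he⟩, rfl⟩ := hxW
    exact ⟨ternMaskV v, hexadWitness_spec.1 ▸ List.mem_map_of_mem hv,
      by rw [hsupp e (hne e he), (hexadWitness_mem hv).2]⟩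
  · rintro ⟨m, hm, rfl⟩
    rw [← hexadWitness_spec.1, List.mem_map] at hm
    obtain ⟨v, hv, rfl⟩ := hm
    obtain ⟨h6, he⟩ := hexadWitness_mem hv
    exact ⟨_, ternWord_mem v, he, he ▸ h6⟩

theorem aSet_or (a b : ℕ) : aSet (a ||| b) = aSet a ∪ aSet b := by
  ext p; simp [mem_aSet]

theorem aSet_two_pow (n : Fin 12) : aSet (2 ^ n.val) = {aPt n} := by
  ext p
  rw [mem_aSet, Nat.testBit_two_pow, decide_eq_true_eq, Finset.mem_singleton]
  exact ⟨fun h => by rw [← aPt_aIdx p, Fin.ext h], fun h => by rw [h, aIdx_aPt]⟩

/-- The number of ones among the low twelve bits. -/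
def maskCount (m : ℕ) : ℕ := (List.finRange 12).countP fun n => m.testBit n.val

theorem card_aSet (m : ℕ) : (aSet m).card = maskCount m := by
  rw [maskCount, List.countP_eq_length_filter,
    ← List.toFinset_card_of_nodup ((List.nodup_finRange 12).filter _), List.toFinset_filter]
  refine Finset.card_bij' (fun p _ => aIdx p) (fun n _ => aPt n) ?_ ?_
    (fun p _ => aPt_aIdx p) (fun n _ => aIdx_aPt n)
  · intro p hp; simpa [mem_aSet] using hp
  · intro n hn; simpa [mem_aSet, aIdx_aPt] using hn

theorem ternary_six_inter {x y : ArrayPt → ZMod 3} (hx : x ∈ ternaryGolayCode)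
    (hy : y ∈ ternaryGolayCode) (hx6 : (ternarySupport x).card = 6)
    (hy6 : (ternarySupport y).card = 6)
    (h5 : 5 ≤ (ternarySupport x ∩ ternarySupport y).card) :
    ternarySupport x = ternarySupport y := by
  set A := ternarySupport x ∩ ternarySupport y with hA
  have hu : (ternarySupport x ∪ ternarySupport y).card + A.card =
      (ternarySupport x).card + (ternarySupport y).card := Finset.card_union_add_card_inter _ _
  have hAU : A ⊆ (A.filter fun p => x p = y p) ∪ A.filter fun p => x p = -y p := by
    intro p hp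
    have hp' := hp
    simp only [hA, Finset.mem_inter, ternarySupport, Finset.mem_filter, Finset.mem_univ,
      true_and] at hp'
    have hab : ∀ a b : ZMod 3, a ≠ 0 → b ≠ 0 → a = b ∨ a = -b := by decide
    rcases hab _ _ hp'.1 hp'.2 with h | h
    · exact Finset.mem_union_left _ (Finset.mem_filter.2 ⟨hp, h⟩)
    · exact Finset.mem_union_right _ (Finset.mem_filter.2 ⟨hp, h⟩)
  have hAcard := (Finset.card_le_card hAU).trans (Finset.card_union_le _ _)
  have small : ∀ ε : ZMod 3, (∀ a : ZMod 3, ε * a = 0 → a = 0) →
      3 ≤ (A.filter fun p => x p = ε * y p).card → ternarySupport x = ternarySupport y := by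
    intro ε hε h3
    have hz : x - ε • y ∈ ternaryGolayCode :=
      Submodule.sub_mem _ hx (Submodule.smul_mem _ _ hy)
    have hsub : ternarySupport (x - ε • y) ⊆
        (ternarySupport x ∪ ternarySupport y) \ (A.filter fun p => x p = ε * y p) := by
      intro p hp
      simp only [ternarySupport, Finset.mem_filter, Finset.mem_univ, true_and, Finset.mem_sdiff,
        Finset.mem_union, Pi.sub_apply, Pi.smul_apply, smul_eq_mul] at hp ⊢
      refine ⟨?_, fun h => hp (by rw [h.2, sub_self])⟩
      by_contra h
      push Not at h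
      exact hp (by rw [h.1, h.2]; simp)
    have hc := Finset.card_le_card hsub
    rw [Finset.card_sdiff_of_subset (show (A.filter fun p => x p = ε * y p) ⊆
      ternarySupport x ∪ ternarySupport y from
      (Finset.filter_subset _ _).trans Finset.inter_subset_union)] at hc
    have h0 : x - ε • y = 0 := by
      by_contra h0
      have h6 := ternary_weight hz h0
      omega
    have hxy : x = ε • y := sub_eq_zero.1 h0
    ext p
    simp only [ternarySupport, Finset.mem_filter, Finset.mem_univ, true_and, hxy, Pi.smul_apply,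
      smul_eq_mul]
    exact not_congr ⟨fun h => hε _ h, fun h => by rw [h, mul_zero]⟩
  by_cases h3 : 3 ≤ (A.filter fun p => x p = y p).card
  · refine small 1 (by simp) ?_
    simpa using h3
  · refine small (-1) (by decide) ?_
    simp only [neg_one_mul]
    omega

/-- The hexads as a finset. -/
def hexadFinset : Finset (Finset ArrayPt) := hexadMasks.toFinset.image aSet

theorem coe_hexadFinset : (hexadFinset : Set (Finset ArrayPt)) = hexadSys := by
  ext h; simp [hexadFinset, mem_hexadSys_iff]

theorem card_hexadFinset : hexadFinset.card = 132 := by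
  rw [hexadFinset, Finset.card_image_of_injOn, List.toFinset_card_of_nodup hexadMasks_nodup,
    hexadMasks_facts.2]
  intro a ha b hb h
  simp only [Finset.mem_coe, List.mem_toFinset] at ha hb
  exact aSet_inj (hexadMasks_facts.1 a ha) (hexadMasks_facts.1 b hb) h

theorem hexad_card {h : Finset ArrayPt} (hh : h ∈ hexadSys) : h.card = 6 := by
  obtain ⟨x, -, rfl, h6⟩ := hh; exact h6

theorem hexad_inter {h k : Finset ArrayPt} (hh : h ∈ hexadSys) (hk : k ∈ hexadSys) (hne : h ≠ k) :
    (h ∩ k).card ≤ 4 := by
  obtain ⟨x, hx, rfl, hx6⟩ := hh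
  obtain ⟨y, hy, rfl, hy6⟩ := hk
  by_contra h5
  exact hne (ternary_six_inter hx hy hx6 hy6 (by omega))

/-- The hexads form an S(5, 6, 12). -/
theorem hexadSys_isSteinerSystem : IsSteinerSystem 5 6 hexadSys := by
  classical
  refine ⟨fun b hb => hexad_card hb, fun s hs => ?_⟩
  have hm : ∀ b, b ∈ hexadFinset ↔ b ∈ hexadSys := fun b => by
    rw [← Finset.mem_coe, coe_hexadFinset]
  have hdisj : Set.PairwiseDisjoint (hexadFinset : Set (Finset ArrayPt))
      (fun b => Finset.powersetCard 5 b) := by
    intro b hb c hc hne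
    refine Finset.disjoint_left.2 fun t htb htc => ?_
    rw [Finset.mem_powersetCard] at htb htc
    have h5 := Finset.card_le_card (Finset.subset_inter htb.1 htc.1)
    have := hexad_inter ((hm b).1 hb) ((hm c).1 hc) hne
    omega
  have hc : (hexadFinset.biUnion fun b => Finset.powersetCard 5 b).card =
      (Finset.powersetCard 5 (Finset.univ : Finset ArrayPt)).card := by
    rw [Finset.card_biUnion hdisj, Finset.sum_congr rfl (fun b hb => by
      rw [Finset.card_powersetCard, hexad_card ((hm b).1 hb)]), Finset.sum_const, card_hexadFinset,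
      Finset.card_powersetCard, Finset.card_univ, Fintype.card_prod, Fintype.card_fin, ZMod.card,
      smul_eq_mul]
    decide +kernel
  have heq := Finset.eq_of_subset_of_card_le
    (s := hexadFinset.biUnion fun b => Finset.powersetCard 5 b)
    (fun t ht => by
      rw [Finset.mem_biUnion] at ht
      obtain ⟨b, -, htb⟩ := ht
      rw [Finset.mem_powersetCard] at htb ⊢
      exact ⟨Finset.subset_univ _, htb.2⟩) hc.ge
  have hs' : s ∈ hexadFinset.biUnion fun b => Finset.powersetCard 5 b := by
    rw [heq, Finset.mem_powersetCard]; exact ⟨Finset.subset_univ _, hs⟩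
  rw [Finset.mem_biUnion] at hs'
  obtain ⟨b, hb, hsb⟩ := hs'
  rw [Finset.mem_powersetCard] at hsb
  refine ⟨b, ⟨(hm b).1 hb, hsb.1⟩, ?_⟩
  rintro c ⟨hc', hsc⟩
  by_contra hne
  have h5 := Finset.card_le_card (Finset.subset_inter hsc hsb.1)
  have := hexad_inter hc' ((hm b).1 hb) hne
  omega

theorem hexadSys_ncard : hexadSys.ncard = 132 := by
  rw [← coe_hexadFinset, Set.ncard_coe_finset, card_hexadFinset]

end Cfsg.Agent.H9
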