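import Cfsg.Agent.H9.WreathSlots

/-!
A tensor power of the anti-diagonal alternating form in characteristic two with a quadratic form vanishing on
basis tensors: the group fixing the sum of the local spaces lies strictly between the stabiliser of the
decomposition and the commutator subgroup of the isometry group.
-/

set_option autoImplicit false
set_option linter.unusedSectionVars false

namespace Cfsg.Agent.H9.Wreath

open Matrix Cfsg.Agent.H99.Asch
open scoped commutatorElement

variable {F : Type*} [Field F] {k t : ℕ}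

/-- A quadratic form with polar form a multiple of the tensor power, zero on basis tensors. -/
structure Quad (Q : ((Fin t → Fin k) → F) → F) (c : F) : Prop where
  two : (2 : F) = 0
  c_ne : c ≠ 0
  smul : ∀ (a : F) x, Q (a • x) = a ^ 2 * Q x
  polar : ∀ x y, QuadraticMap.polar Q x y = c * (x ⬝ᵥ gram k t F *ᵥ y)
  basis : ∀ a, Q (Pi.single a 1) = 0

namespace Quad

variable {Q : ((Fin t → Fin k) → F) → F} {c : F} (H : Quad Q c)

include H

lemma zero : Q 0 = 0 := by simpa using H.smul 0 0

lemma add (x y : (Fin t → Fin k) → F) : Q (x + y) = Q x + Q y + c * (x ⬝ᵥ gram k t F *ᵥ y) := by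
  rw [← H.polar, QuadraticMap.polar]; ring

lemma bl_self (x : (Fin t → Fin k) → F) : x ⬝ᵥ gram k t F *ᵥ x = 0 := by
  have h := H.add x x
  rw [← two_smul F x, H.smul] at h
  have h' : c * (x ⬝ᵥ gram k t F *ᵥ x) = 0 := by linear_combination -h + Q x * H.two
  exact (mul_eq_zero.1 h').resolve_left H.c_ne

omit H in
lemma bl_single (a b : Fin t → Fin k) :
    (Pi.single a (1 : F)) ⬝ᵥ gram k t F *ᵥ Pi.single b 1 = gram k t F a b := by
  simp

omit H in
lemma bl_symm (x y : (Fin t → Fin k) → F) : x ⬝ᵥ gram k t F *ᵥ y = y ⬝ᵥ gram k t F *ᵥ x := by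
  rw [Matrix.dotProduct_mulVec, dotProduct_comm, ← Matrix.mulVec_transpose, gram_transpose]

lemma sum_zero (s : Finset (Fin t → Fin k)) (x : (Fin t → Fin k) → F)
    (hs : ∀ a ∈ s, ∀ b ∈ s, gram k t F a b = 0) : Q (∑ a ∈ s, x a • Pi.single a (1 : F)) = 0 := by
  classical
  induction s using Finset.induction with
  | empty => simpa using H.zero
  | insert a s ha ih =>
    rw [Finset.sum_insert ha, H.add, H.smul, H.basis, mul_zero, zero_add,
      ih (fun b hb b' hb' => hs b (Finset.mem_insert_of_mem hb) b' (Finset.mem_insert_of_mem hb')), zero_add]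
    simp only [Matrix.mulVec_sum, dotProduct_sum, Matrix.mulVec_smul, dotProduct_smul, smul_dotProduct,
      bl_single]
    rw [Finset.sum_eq_zero, mul_zero]
    intro b hb
    simp [hs a (Finset.mem_insert_self _ _) b (Finset.mem_insert_of_mem hb)]

lemma supported_zero (x : (Fin t → Fin k) → F) (hx : ∀ a b, x a ≠ 0 → x b ≠ 0 → gram k t F a b = 0) :
    Q x = 0 := by
  classical
  have e : x = ∑ a ∈ Finset.univ.filter (fun a => x a ≠ 0), x a • Pi.single a (1 : F) := by
    funext b
    by_cases hb : x b = 0 <;> simp [Finset.sum_apply, Pi.single_apply, hb]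
  rw [e]
  exact H.sum_zero _ x fun a ha b hb => hx a b (Finset.mem_filter.1 ha).2 (Finset.mem_filter.1 hb).2

lemma iso_of_basis (M : Matrix (Fin t → Fin k) (Fin t → Fin k) F) (hM : Mᵀ * gram k t F * M = gram k t F)
    (hb : ∀ a, Q (M *ᵥ Pi.single a 1) = 0) (x : (Fin t → Fin k) → F) : Q (M *ᵥ x) = Q x := by
  classical
  have hbl : ∀ x y, (M *ᵥ x) ⬝ᵥ gram k t F *ᵥ (M *ᵥ y) = x ⬝ᵥ gram k t F *ᵥ y := fun x y => by
    conv_rhs => rw [← hM, ← Matrix.mulVec_mulVec, ← Matrix.mulVec_mulVec, Matrix.dotProduct_mulVec x (Mᵀ),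
      Matrix.vecMul_transpose]
  have key : ∀ s : Finset (Fin t → Fin k), Q (M *ᵥ ∑ a ∈ s, x a • Pi.single a (1 : F)) =
      Q (∑ a ∈ s, x a • Pi.single a (1 : F)) := by
    intro s
    induction s using Finset.induction with
    | empty => simp
    | insert a s ha ih =>
      rw [Finset.sum_insert ha, Matrix.mulVec_add, H.add, H.add, ih, hbl, Matrix.mulVec_smul, H.smul, H.smul,
        hb, H.basis]
  have e : x = ∑ a, x a • Pi.single a (1 : F) := by
    funext b; simp [Finset.sum_apply, Pi.single_apply]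
  rw [e]; exact key _

end Quad

/-- The unit of an involutory matrix. -/
def invUnit {κ : Type} [Fintype κ] [DecidableEq κ] (M : Matrix κ κ F) (h : M * M = 1) : GL κ F :=
  ⟨M, M, h, h⟩

lemma mem_iso_of {κ : Type} [Fintype κ] [DecidableEq κ] {Q : (κ → F) → F} (g : GL κ F)
    (h : ∀ x, Q ((g : Matrix κ κ F) *ᵥ x) = Q x) : g ∈ Cfsg.isometryGroup F Q :=
  fun u _ => h u

lemma omegaGL_eq {κ : Type} [Fintype κ] [DecidableEq κ] (Q : (κ → F) → F) :
    Cfsg.Geo.omegaGL Q = ⁅Cfsg.isometryGroup F Q, Cfsg.isometryGroup F Q⁆ := by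
  rw [Cfsg.Geo.omegaGL]
  show (commutator (Cfsg.isometryGroup F Q)).map _ = _
  rw [commutator_def, Subgroup.map_commutator, ← MonoidHom.range_eq_map, Subgroup.range_subtype]

lemma omegaGL_preserves {κ : Type} [Fintype κ] [DecidableEq κ] {Q : (κ → F) → F} {g : GL κ F}
    (hg : g ∈ Cfsg.Geo.omegaGL Q) (x : κ → F) : Q ((g : Matrix κ κ F) *ᵥ x) = Q x := by
  obtain ⟨a, -, rfl⟩ := hg
  exact a.2 x x

section Main

variable {s : ℕ} [NeZero k] (L : Loc k (s + 2) F) {Q : ((Fin (s + 2) → Fin k) → F) → F} {c : F} (H : Quad Q c)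

local notation "κ" => (Fin (s + 2) → Fin k)

include L in
lemma gram_diag (a : κ) : gram k (s + 2) F a a = 0 := by
  rw [gram_apply, if_neg]
  intro h
  exact L.rev_ne (a 0) (congrFun h 0).symm

include L H in
/-- A matrix on one factor that preserves the local form is an isometry. -/
lemma slot_preserves (i : Fin (s + 2)) {h : Matrix (Fin k) (Fin k) F} (hh : hᵀ * antiJ k F * h = antiJ k F)
    (x : κ → F) : Q (slot i h *ᵥ x) = Q x := by
  refine H.iso_of_basis _ (slot_iso i hh) (fun a => H.supported_zero _ fun b b' hb hb' => ?_) x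
  simp only [Matrix.mulVec_single_one, Matrix.col_apply, slot_apply] at hb hb'
  rw [gram_apply, if_neg]
  intro e
  obtain ⟨j, hj⟩ := exists_ne i
  have h1 : b j = a j := by
    by_contra hne
    exact hb (if_neg fun h => hne (h j hj))
  have h2 : b' j = a j := by
    by_contra hne
    exact hb' (if_neg fun h => hne (h j hj))
  have : b' j = (b j).rev := congrFun e j
  rw [h1, h2] at this
  exact L.rev_ne (a j) this.symm

/-- The product of two local nilpotent maps. -/
def pairMat (M N : Matrix (Fin k) (Fin k) F) : Matrix κ κ F := slot 0 M * slot 1 N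

lemma zero_ne_one' : (0 : Fin (s + 2)) ≠ 1 := by simp [Fin.ext_iff, Fin.val_one]

lemma pairMat_mul (M N M' N' : Matrix (Fin k) (Fin k) F) :
    (pairMat M N : Matrix κ κ F) * pairMat M' N' = pairMat (M * M') (N * N') := by
  simp only [pairMat]
  rw [Matrix.mul_assoc, ← Matrix.mul_assoc (slot 1 N), slot_comm zero_ne_one'.symm N M', Matrix.mul_assoc,
    slot_mul, ← Matrix.mul_assoc, slot_mul]

lemma pairMat_sq : (pairMat L.B L.A : Matrix κ κ F) * pairMat L.B L.A = 0 := by
  rw [pairMat_mul, L.B_sq, L.A_sq, pairMat, slot_zero, Matrix.zero_mul]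

include H in
lemma sigma_sq : (1 + pairMat L.B L.A : Matrix κ κ F) * (1 + pairMat L.B L.A) = 1 := by
  rw [add_mul, one_mul, mul_add, mul_one, pairMat_sq L, add_zero, add_assoc, ← two_smul F (pairMat L.B L.A),
    H.two, zero_smul, add_zero]

include H in
lemma sigma_preserves (x : κ → F) : Q ((1 + pairMat L.B L.A) *ᵥ x) = Q x := by
  set X : Matrix κ κ F := pairMat L.B L.A with hX
  set d : Fin (s + 2) → Matrix (Fin k) (Fin k) F :=
    Function.update (Function.update (1 : Fin (s + 2) → Matrix (Fin k) (Fin k) F) 0 L.B) 1 L.A with hd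
  have hXd : X = tpow d := by
    rw [hX, pairMat, slot, slot, ← tpow_mul]
    congr 1
    funext j
    rcases eq_or_ne j 1 with rfl | h1
    · simp [hd, Function.update_of_ne zero_ne_one'.symm]
    · rcases eq_or_ne j 0 with rfl | h0
      · simp [hd, Function.update_of_ne h1]
      · simp [hd, Function.update_of_ne h1, Function.update_of_ne h0]
  have hmono : ∀ j, Mono (d j) := fun j => by
    rw [hd]
    rcases eq_or_ne j 1 with rfl | h1
    · simpa using L.A_mono
    · rcases eq_or_ne j 0 with rfl | h0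
      · simpa [Function.update_of_ne h1] using L.B_mono
      · rw [Function.update_of_ne h1, Function.update_of_ne h0]
        exact fun y => ⟨y, 1, fun x => by simp [Matrix.one_apply]⟩
  have hcomm : slot (1 : Fin (s + 2)) L.A * slot 0 L.B = slot 0 L.B * slot 1 L.A :=
    slot_comm zero_ne_one'.symm _ _
  have hGX : (gram k (s + 2) F * X)ᵀ = gram k (s + 2) F * X := by
    rw [hXd, gram, ← tpow_mul, tpow_transpose]
    congr 1
    funext j
    rw [Pi.mul_apply, hd]
    rcases eq_or_ne j 1 with rfl | h1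
    · simpa using L.A_symm
    · rcases eq_or_ne j 0 with rfl | h0
      · simpa [Function.update_of_ne h1] using L.B_symm
      · simp [Function.update_of_ne h1, Function.update_of_ne h0, antiJ_transpose]
  have hdiag : ∀ a, (gram k (s + 2) F * X) a a = 0 := fun a => by
    rw [hXd, gram, ← tpow_mul, tpow_apply]
    rcases L.B_alt with hB | hs
    · refine Finset.prod_eq_zero (Finset.mem_univ 0) ?_
      simpa [hd, Function.update_of_ne zero_ne_one'] using hB (a 0)
    · refine Finset.prod_eq_zero (Finset.mem_univ (⟨2, by omega⟩ : Fin (s + 2))) ?_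
      have e1 : (⟨2, by omega⟩ : Fin (s + 2)) ≠ 1 := by simp [Fin.ext_iff, Fin.val_one]
      have e0 : (⟨2, by omega⟩ : Fin (s + 2)) ≠ 0 := by simp [Fin.ext_iff]
      simp [hd, Function.update_of_ne e1, Function.update_of_ne e0, antiJ_apply, (L.rev_ne _).symm]
  refine H.iso_of_basis _ ?_ (fun a => ?_) x
  · have hXG : Xᵀ * gram k (s + 2) F = gram k (s + 2) F * X := by
      rw [← hGX, transpose_mul, gram_transpose]
    rw [transpose_add, transpose_one, add_mul, one_mul, add_mul, hXG, mul_add, mul_one, mul_add, mul_one,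
      Matrix.mul_assoc, pairMat_sq L, Matrix.mul_zero, add_zero, add_assoc, ← two_smul F (gram k (s + 2) F * X),
      H.two, zero_smul, add_zero]
  · rw [Matrix.add_mulVec, Matrix.one_mulVec, H.add, H.basis, zero_add, H.supported_zero (X *ᵥ Pi.single a 1) ?_,
      zero_add]
    · rw [Matrix.mulVec_mulVec, Matrix.mulVec_single_one, single_dotProduct, one_mul, Matrix.col_apply, hdiag,
        mul_zero]
    · intro b b' hb hb'
      rw [Matrix.mulVec_single_one, Matrix.col_apply, hXd, tpow_apply] at hb hb'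
      have hbb : b = b' := funext fun j => by
        obtain ⟨p, r, hp⟩ := hmono j (a j)
        have h1 := Finset.prod_ne_zero_iff.1 hb j (Finset.mem_univ j)
        have h2 := Finset.prod_ne_zero_iff.1 hb' j (Finset.mem_univ j)
        rw [hp] at h1 h2
        split_ifs at h1 h2 with e1 e2
        · rw [e1, e2]
        · exact absurd rfl h2
        all_goals exact absurd rfl h1
      rw [hbb]; exact gram_diag L b'

/-- The element mixing two factors. -/
def mixMat : Matrix κ κ F := 1 + L.r • pairMat L.A L.A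

include H in
lemma mixMat_sq : mixMat L * mixMat L = (1 : Matrix κ κ F) := by
  have h0 : (pairMat L.A L.A : Matrix κ κ F) * pairMat L.A L.A = 0 := by
    rw [pairMat_mul, L.A_sq, pairMat, slot_zero, Matrix.zero_mul]
  rw [mixMat, add_mul, one_mul, mul_add, mul_one, Matrix.smul_mul, Matrix.mul_smul, h0, smul_zero, smul_zero,
    add_zero, add_assoc, ← two_smul F (L.r • pairMat L.A L.A), H.two, zero_smul, add_zero]

include H in
lemma mix_mem_omega : invUnit (mixMat L) (mixMat_sq L H) ∈ Cfsg.Geo.omegaGL Q := by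
  let hU : GL κ F := ⟨slot 0 L.h, slot 0 L.hi, by rw [slot_mul, L.h_inv, slot_one],
    by rw [slot_mul, L.hi_inv, slot_one]⟩
  let σU : GL κ F := invUnit _ (sigma_sq L H)
  have hh : hU ∈ Cfsg.isometryGroup F Q := mem_iso_of hU (slot_preserves L H 0 L.h_iso)
  have hσ : σU ∈ Cfsg.isometryGroup F Q := mem_iso_of σU (sigma_preserves L H)
  have heq : invUnit (mixMat L) (mixMat_sq L H) = ⁅hU, σU⁆ := by
    apply Units.ext
    rw [commutatorElement_def]
    show mixMat L = slot 0 L.h * (1 + pairMat L.B L.A) * slot 0 L.hi * (1 + pairMat L.B L.A)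
    have e : slot 0 L.h * (pairMat L.B L.A : Matrix κ κ F) * slot 0 L.hi = pairMat (L.h * L.B * L.hi) L.A := by
      simp only [pairMat, Matrix.mul_assoc]
      rw [slot_comm zero_ne_one'.symm L.A L.hi]
      simp only [← Matrix.mul_assoc]
      rw [slot_mul, slot_mul]
    rw [mul_add (slot 0 L.h), mul_one, add_mul (slot 0 L.h), slot_mul, L.h_inv, slot_one, e, L.h_conj]
    have e2 : (pairMat (L.B + L.r • L.A) L.A : Matrix κ κ F) = pairMat L.B L.A + L.r • pairMat L.A L.A := by
      simp only [pairMat]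
      rw [slot_add, slot_smul, add_mul, Matrix.smul_mul]
    have e3 : (pairMat L.A L.A : Matrix κ κ F) * pairMat L.B L.A = 0 := by
      rw [pairMat_mul, L.A_sq, pairMat, slot_zero, Matrix.mul_zero]
    rw [e2, ← add_assoc, add_mul, sigma_sq L H, Matrix.smul_mul, mul_add, mul_one, e3, add_zero, mixMat]
  rw [heq, omegaGL_eq]
  exact Subgroup.commutator_mem_commutator hh hσ

include H in
lemma mix_mem_spanStab : invUnit (mixMat L) (mixMat_sq L H) ∈ spanStab L := by
  refine mem_spanStab_of_slots L _ fun i C hC => ?_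
  suffices h : mixMat L * slot i C * mixMat L ∈ locSpan L from ⟨h, h⟩
  obtain ⟨a, ha⟩ := L.anticomm L.A_mem hC
  set X : Matrix κ κ F := pairMat L.A L.A with hX
  have hexp : mixMat L * slot i C * mixMat L =
      slot i C + L.r • (X * slot i C + slot i C * X) + (L.r * L.r) • (X * slot i C * X) := by
    rw [mixMat, ← hX]
    simp only [add_mul, mul_add, one_mul, mul_one, Matrix.smul_mul, Matrix.mul_smul, smul_smul, smul_add]
    abel
  rw [hexp]
  have hA2 : L.A * C * L.A = a • L.A := by
    have e := congrArg (fun M => M * L.A) ha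
    simpa [add_mul, mul_assoc, L.A_sq] using e
  have h0 : (pairMat L.A L.A : Matrix κ κ F) * pairMat L.A L.A = 0 := by
    rw [pairMat_mul, L.A_sq, pairMat, slot_zero, Matrix.zero_mul]
  rcases eq_or_ne i 0 with rfl | hi0
  · have e1 : X * slot 0 C + slot 0 C * X = a • slot 1 L.A := by
      rw [hX, pairMat, Matrix.mul_assoc, slot_comm zero_ne_one'.symm, ← Matrix.mul_assoc, slot_mul,
        ← Matrix.mul_assoc, slot_mul, ← add_mul, ← slot_add, ha, slot_smul, slot_one, Matrix.smul_mul, one_mul]
    have e2 : X * slot 0 C * X = 0 := by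
      rw [hX, show slot (0 : Fin (s + 2)) C = (pairMat C 1 : Matrix κ κ F) by rw [pairMat, slot_one, mul_one],
        pairMat_mul, pairMat_mul, mul_one, L.A_sq, pairMat, slot_zero, mul_zero]
    rw [e1, e2, smul_zero, add_zero]
    exact (locSpan L).add_mem (slot_mem L 0 hC)
      ((locSpan L).smul_mem _ ((locSpan L).smul_mem _ (slot_mem L 1 L.A_mem)))
  rcases eq_or_ne i 1 with rfl | hi1
  · have eC : slot (1 : Fin (s + 2)) C = (pairMat 1 C : Matrix κ κ F) := by rw [pairMat, slot_one, one_mul]
    have e1 : X * slot 1 C + slot 1 C * X = a • slot 0 L.A := by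
      rw [hX, eC, pairMat_mul, pairMat_mul, one_mul, mul_one, pairMat, pairMat, ← mul_add, ← slot_add, ha,
        slot_smul, slot_one, Matrix.mul_smul, mul_one]
    have e2 : X * slot 1 C * X = 0 := by
      rw [hX, eC, pairMat_mul, pairMat_mul, mul_one, L.A_sq, pairMat, slot_zero, zero_mul]
    rw [e1, e2, smul_zero, add_zero]
    exact (locSpan L).add_mem (slot_mem L 1 hC)
      ((locSpan L).smul_mem _ ((locSpan L).smul_mem _ (slot_mem L 0 L.A_mem)))
  · have hc : slot i C * X = X * slot i C := by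
      rw [hX, pairMat, ← Matrix.mul_assoc, slot_comm hi0, Matrix.mul_assoc, slot_comm hi1, ← Matrix.mul_assoc]
    rw [Matrix.mul_assoc X, hc, ← Matrix.mul_assoc, h0, Matrix.zero_mul, smul_zero, add_zero,
      ← two_smul F (X * slot i C), H.two, zero_smul, smul_zero, add_zero]
    exact slot_mem L i hC

/-- Elements of the standard group have pure columns; the mixing element has none. -/
lemma mix_not_standard (hr : mixMat L * mixMat L = (1 : Matrix κ κ F)) :
    invUnit (mixMat L) hr ∉ Cfsg.Geo.tensorWreathStandard k (s + 2) F := by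
  intro hg
  obtain ⟨d, σ, hd⟩ := exists_decomp hg
  have hcol : ∀ x y : κ, mixMat L x y = ∏ j, (d j : Matrix (Fin k) (Fin k) F) (x j) (y (σ.symm j)) := by
    intro x y
    have := congrFun (congrFun (congrArg (fun g : GL κ F => (g : Matrix κ κ F)) hd) x) y
    rw [show ((invUnit (mixMat L) hr : GL κ F) : Matrix κ κ F) = mixMat L from rfl] at this
    rw [this]
    show ((tpow (fun j => (d j : Matrix (Fin k) (Fin k) F)) * permMat σ : Matrix κ κ F)) x y = _
    rw [mul_permMat_apply, tpow_apply]
    rfl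
  let a : κ := Function.update (Function.update (fun _ => 0) 0 1) 1 1
  let z : κ := fun _ => 0
  let b : κ := Function.update (fun _ => 0) 0 1
  let b' : κ := Function.update (fun _ => 0) 1 1
  have hprod : ∀ y : κ, mixMat L a y * mixMat L z y = mixMat L b y * mixMat L b' y := by
    intro y
    simp only [hcol, ← Finset.prod_mul_distrib]
    refine Finset.prod_congr rfl fun j _ => ?_
    rcases eq_or_ne j 1 with rfl | h1
    · simp [a, z, b, b', Function.update_of_ne zero_ne_one'.symm, mul_comm]
    · rcases eq_or_ne j 0 with rfl | h0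
      · simp [a, z, b, b', Function.update_of_ne h1]
      · simp [a, z, b, b', Function.update_of_ne h1, Function.update_of_ne h0]
  have hM : ∀ x : κ, mixMat L x a = (if x = a then 1 else 0) + L.r * (if x = z then 1 else 0) := by
    intro x
    rw [mixMat, Matrix.add_apply, Matrix.one_apply, Matrix.smul_apply, smul_eq_mul]
    congr 2
    rw [pairMat, slot, slot, ← tpow_mul, tpow_apply]
    rw [show (if x = z then (1 : F) else 0) = ∏ j, (if x j = 0 then (1 : F) else 0) by
      rw [Fintype.prod_boole]; simp [z, funext_iff]]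
    refine Finset.prod_congr rfl fun j _ => ?_
    rcases eq_or_ne j 1 with rfl | h1
    · simp [a, Function.update_of_ne zero_ne_one'.symm, L.A_col_one]
    · rcases eq_or_ne j 0 with rfl | h0
      · simp [a, Function.update_of_ne h1, L.A_col_one]
      · simp [a, Function.update_of_ne h1, Function.update_of_ne h0, Matrix.one_apply]
  have haz : a ≠ z := fun e => L.one_ne (by simpa [a, z] using congrFun e 1)
  have hba : b ≠ a := fun e => L.one_ne (by
    simpa [a, b, Function.update_of_ne zero_ne_one'.symm] using (congrFun e 1).symm)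
  have hbz : b ≠ z := fun e => L.one_ne (by simpa [b, z] using congrFun e 0)
  have := hprod a
  rw [hM, hM, hM, hM] at this
  simp [haz, Ne.symm haz, hba, hbz, L.r_ne] at this

include H in
lemma standard_le_spanStab {g : GL κ F} (hg : g ∈ Cfsg.Geo.tensorWreathStandard k (s + 2) F)
    (hiso : (g : Matrix κ κ F)ᵀ * gram k (s + 2) F * g = gram k (s + 2) F) : g ∈ spanStab L := by
  obtain ⟨d, σ, rfl⟩ := exists_decomp hg
  set T : Matrix κ κ F := tpow fun j => (d j : Matrix (Fin k) (Fin k) F) with hT
  have hval : ((tpowUnit d * permUnit σ : GL κ F) : Matrix κ κ F) = T * permMat σ := rfl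
  rw [hval, transpose_mul, permMat_transpose] at hiso
  have hP1 : (permMat σ : Matrix κ κ F) * permMat σ.symm = 1 := (permUnit σ).val_inv
  have hTG : Tᵀ * gram k (s + 2) F * T = gram k (s + 2) F := by
    have e1 : permMat σ * (permMat σ.symm * Tᵀ * gram k (s + 2) F * (T * permMat σ)) * permMat σ.symm =
        Tᵀ * gram k (s + 2) F * T := by
      simp only [Matrix.mul_assoc, hP1, Matrix.mul_one]
      rw [← Matrix.mul_assoc (permMat σ), hP1, Matrix.one_mul]
    rw [← e1, hiso, permMat_gram]
  rw [hT, tpow_transpose, gram, ← tpow_mul, ← tpow_mul] at hTG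
  refine mem_spanStab_of_slots L _ fun i C hC => ?_
  constructor
  · obtain ⟨μ, -, hμ⟩ := exists_scalar_of_tpow_eq _ hTG (σ i)
    show T * permMat σ * slot i C * (permMat σ.symm * tpow fun j => (((d j)⁻¹ : GL (Fin k) F) : Matrix _ _ F)) ∈ _
    rw [Matrix.mul_assoc T, Matrix.mul_assoc T, ← Matrix.mul_assoc _ (permMat σ.symm), permMat_conj_slot,
      ← Matrix.mul_assoc, hT, tpow_conj_slot (fun j => (d j : Matrix (Fin k) (Fin k) F))
        (fun j => (((d j)⁻¹ : GL (Fin k) F) : Matrix (Fin k) (Fin k) F)) (fun j => (d j).val_inv)]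
    exact slot_mem L _ (L.conj _ _ μ (d (σ i)).val_inv (d (σ i)).inv_val hμ C hC)
  · obtain ⟨μ, hμ0, hμ⟩ := exists_scalar_of_tpow_eq _ hTG i
    show permMat σ.symm * (tpow fun j => (((d j)⁻¹ : GL (Fin k) F) : Matrix _ _ F)) * slot i C * (T * permMat σ) ∈ _
    rw [Matrix.mul_assoc (permMat σ.symm), Matrix.mul_assoc (permMat σ.symm), ← Matrix.mul_assoc _ T, hT,
      tpow_conj_slot (fun j => (((d j)⁻¹ : GL (Fin k) F) : Matrix (Fin k) (Fin k) F))
        (fun j => (d j : Matrix (Fin k) (Fin k) F)) (fun j => (d j).inv_val), ← Matrix.mul_assoc]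
    have := permMat_conj_slot σ.symm i ((((d i)⁻¹ : GL (Fin k) F) : Matrix _ _ F) * C * (d i : Matrix _ _ F))
    rw [Equiv.symm_symm] at this
    rw [this]
    refine slot_mem L _ (L.conj _ _ μ⁻¹ (Units.inv_mul (d i)) (Units.mul_inv (d i)) ?_ C hC)
    simp only [Pi.mul_apply] at hμ
    have e : antiJ k F = μ • ((((d i)⁻¹ : GL (Fin k) F) : Matrix (Fin k) (Fin k) F)ᵀ * antiJ k F *
        (((d i)⁻¹ : GL (Fin k) F) : Matrix (Fin k) (Fin k) F)) := by
      rw [← Matrix.smul_mul, ← Matrix.mul_smul, ← hμ]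
      have h1 : (((d i)⁻¹ : GL (Fin k) F) : Matrix (Fin k) (Fin k) F)ᵀ * (d i : Matrix _ _ F)ᵀ = 1 := by
        rw [← transpose_mul, Units.mul_inv (d i), transpose_one]
      simp only [← Matrix.mul_assoc, h1, Matrix.one_mul]
      rw [Matrix.mul_assoc, Units.mul_inv (d i), Matrix.mul_one]
    conv_rhs => rw [e, smul_smul, inv_mul_cancel₀ hμ0, one_smul]

/-- The four basis tensors carrying the two hyperbolic pairs. -/
def e0 : κ := fun _ => 0
/-- The four basis tensors carrying the two hyperbolic pairs. -/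
def e1 : κ := fun _ => Fin.rev 0
/-- The four basis tensors carrying the two hyperbolic pairs. -/
def g0 : κ := Function.update (fun _ => 0) 0 1
/-- The four basis tensors carrying the two hyperbolic pairs. -/
def g1 : κ := Function.update (fun _ => Fin.rev 0) 0 (Fin.rev 1)

/-- Membership in the four basis tensors. -/
def InS (a : κ) : Prop := a = e0 ∨ a = e1 ∨ a = g0 ∨ a = g1

lemma InS.const {a : κ} (h : InS a) {i j : Fin (s + 2)} (hi : i ≠ 0) (hj : j ≠ 0) : a i = a j := by
  rcases h with rfl | rfl | rfl | rfl <;>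
    simp [e0, e1, g0, g1, Function.update_of_ne hi, Function.update_of_ne hj]

include L in
lemma exists_notInS (i : Fin (s + 2)) (x : Fin k) : ∃ a : κ, a i = x ∧ ¬ InS a := by
  rcases L.size with hk | hs
  · subst hk
    rcases eq_or_ne i 0 with rfl | hi
    · refine ⟨Function.update (fun _ => 1) 0 x, by simp, ?_⟩
      rintro (h | h | h | h) <;> have := congrFun h 1 <;>
        simp [e0, e1, g0, g1, Function.update_of_ne zero_ne_one'.symm, Fin.rev] at this
    · refine ⟨Function.update (Function.update (fun _ => 0) 0 (if x = 0 then Fin.rev 1 else 0)) i x, by simp, ?_⟩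
      rintro (h | h | h | h) <;>
        · have h0 := congrFun h 0
          have h1 := congrFun h i
          by_cases hx : x = 0 <;>
            simp [e0, e1, g0, g1, Function.update_of_ne (Ne.symm hi), Function.update_of_ne hi, hx, Fin.rev] at h0 h1
  · have h12 : (⟨2, by omega⟩ : Fin (s + 2)) ≠ 1 := by simp [Fin.ext_iff, Fin.val_one]
    have h02 : (⟨2, by omega⟩ : Fin (s + 2)) ≠ 0 := by simp [Fin.ext_iff]
    have hL : (Fin.rev (0 : Fin k)) ≠ 0 := L.rev_ne 0
    rcases eq_or_ne i 0 with rfl | hi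
    · refine ⟨Function.update (Function.update (fun _ => 0) ⟨2, by omega⟩ (Fin.rev 0)) 0 x, by simp, fun h => ?_⟩
      have := h.const zero_ne_one'.symm h02
      simp [Function.update_of_ne zero_ne_one'.symm, Function.update_of_ne h02, Function.update_of_ne h12.symm] at this
      exact hL this.symm
    · obtain ⟨j, hj0, hji⟩ : ∃ j : Fin (s + 2), j ≠ 0 ∧ j ≠ i := by
        rcases eq_or_ne i 1 with rfl | h
        · exact ⟨_, h02, h12⟩
        · exact ⟨1, zero_ne_one'.symm, h.symm⟩
      refine ⟨Function.update (Function.update (fun _ => 0) j (if x = 0 then Fin.rev 0 else 0)) i x, by simp,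
        fun h => ?_⟩
      have := h.const hj0 hi
      by_cases hx : x = 0 <;> simp [Function.update_of_ne hji, hx] at this
      · exact hL this
      · exact hx this.symm

/-- A member of the span with image in the four tensors is zero. -/
lemma span_eq_zero {Z : Matrix κ κ F} (hZ : Z ∈ locSpan L) (hS : ∀ a b, ¬ InS a → Z a b = 0) : Z = 0 := by
  obtain ⟨A, rfl⟩ := hZ
  have happ : ∀ a b, spanMap L A a b = ∑ i, slot i (A i : Matrix (Fin k) (Fin k) F) a b := fun a b => by
    show (∑ i, slot i (A i : Matrix (Fin k) (Fin k) F)) a b = _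
    rw [Matrix.sum_apply]
  have hoff : ∀ i x y, x ≠ y → (A i : Matrix (Fin k) (Fin k) F) x y = 0 := by
    intro i x y hxy
    obtain ⟨a, hai, ha⟩ := exists_notInS L i x
    have := hS a (Function.update a i y) ha
    rw [happ, Finset.sum_eq_single i] at this
    · rw [slot_apply, if_pos (fun j hj => by rw [Function.update_of_ne hj]), Function.update_self, hai] at this
      exact this
    · intro j _ hji
      rw [slot_apply, if_neg]
      intro h
      have := h i hji.symm
      rw [Function.update_self, hai] at this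
      exact hxy this
    · simp
  obtain ⟨a₀, -, ha₀⟩ := exists_notInS L 0 0
  have hdiag : ∀ a : κ, ∑ i, (A i : Matrix (Fin k) (Fin k) F) (a i) (a i) = 0 := by
    intro a
    have := hS a₀ a₀ ha₀
    rw [happ] at this
    rw [← this]
    refine Finset.sum_congr rfl fun i _ => ?_
    rw [slot_apply, if_pos (fun _ _ => rfl), L.diag _ (A i).2, L.diag _ (A i).2 (a₀ i)]
  ext a b
  rw [happ, Matrix.zero_apply]
  by_cases hab : a = b
  · subst hab
    rw [← hdiag a]
    exact Finset.sum_congr rfl fun i _ => by rw [slot_apply, if_pos (fun _ _ => rfl)]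
  · refine Finset.sum_eq_zero fun i _ => ?_
    rw [slot_apply]
    split_ifs with h
    · refine hoff i _ _ fun e => hab (funext fun j => ?_)
      rcases eq_or_ne j i with rfl | hj
      · exact e
      · exact h j hj
    · rfl

/-- The reflection at a vector. -/
def refl (v : κ → F) : Matrix κ κ F := 1 + Matrix.vecMulVec v (gram k (s + 2) F *ᵥ v)

lemma refl_mulVec (v x : κ → F) : refl v *ᵥ x = x + (x ⬝ᵥ gram k (s + 2) F *ᵥ v) • v := by
  rw [refl, Matrix.add_mulVec, Matrix.one_mulVec, Matrix.vecMulVec_mulVec, dotProduct_comm]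
  ext a
  simp [mul_comm]

include H in
lemma refl_sq (v : κ → F) : refl v * refl v = (1 : Matrix κ κ F) := by
  refine Matrix.ext_of_mulVec_single fun a => ?_
  rw [← Matrix.mulVec_mulVec, Matrix.one_mulVec, refl_mulVec, refl_mulVec, add_dotProduct, smul_dotProduct,
    H.bl_self, smul_zero, add_zero, add_assoc, ← add_smul, ← two_mul, H.two, zero_mul, zero_smul, add_zero]

include H in
lemma refl_mem (v : κ → F) (hv : Q v = c) : invUnit (refl v) (refl_sq H v) ∈ Cfsg.isometryGroup F Q :=
  mem_iso_of _ fun x => by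
    show Q (refl v *ᵥ x) = Q x
    rw [refl_mulVec, H.add, H.smul, hv, Matrix.mulVec_smul, dotProduct_smul, smul_eq_mul]
    linear_combination (x ⬝ᵥ gram k (s + 2) F *ᵥ v) ^ 2 * c * H.two

include H in
/-- An element of the commutator subgroup of the isometry group outside the stabiliser. -/
lemma exists_not_mem_spanStab : ∃ g ∈ Cfsg.Geo.omegaGL Q, g ∉ spanStab L := by
  have hk0 : Fin.rev (0 : Fin k) ≠ 0 := L.rev_ne 0
  have hp : Fin.rev (1 : Fin k) ≠ Fin.rev 0 := fun e => L.one_ne (Fin.rev_injective e)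
  have h10 : (1 : Fin (s + 2)) ≠ 0 := zero_ne_one'.symm
  have n01 : (e0 : κ) ≠ e1 := fun e => hk0 (congrFun e 0).symm
  have n0a : (e0 : κ) ≠ g0 := fun e => L.one_ne (by simpa [e0, g0] using (congrFun e 0).symm)
  have n0b : (e0 : κ) ≠ g1 := fun e => hk0 (by simpa [e0, g1, Function.update_of_ne h10] using (congrFun e 1).symm)
  have n1a : (e1 : κ) ≠ g0 := fun e => hk0 (by simpa [e1, g0, Function.update_of_ne h10] using congrFun e 1)
  have n1b : (e1 : κ) ≠ g1 := fun e => hp (by simpa [e1, g1] using (congrFun e 0).symm)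
  have nab : (g0 : κ) ≠ g1 := fun e => hk0 (by simpa [g0, g1, Function.update_of_ne h10] using (congrFun e 1).symm)
  have r0 : (fun j => ((e0 : κ) j).rev) = e1 := rfl
  have r1 : (fun j => ((e1 : κ) j).rev) = e0 := by funext j; simp [e0, e1]
  have ra : (fun j => ((g0 : κ) j).rev) = g1 := by
    funext j; rcases eq_or_ne j 0 with rfl | h <;> simp [g0, g1, *]
  have rb : (fun j => ((g1 : κ) j).rev) = g0 := by
    funext j; rcases eq_or_ne j 0 with rfl | h <;> simp [g0, g1, *]
  set v : κ → F := Pi.single e0 1 + Pi.single e1 1 with hv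
  set w : κ → F := Pi.single e1 1 + (Pi.single g0 1 + Pi.single g1 1) with hw
  have hQv : Q v = c := by
    rw [hv, H.add, H.basis, H.basis, Quad.bl_single, gram_apply, r0, if_pos rfl]; ring
  have hQw : Q w = c := by
    rw [hw, H.add, H.add, H.basis, H.basis, H.basis, Matrix.mulVec_add, dotProduct_add, Quad.bl_single,
      Quad.bl_single, Quad.bl_single, gram_apply, gram_apply, gram_apply, r1, ra, if_pos rfl, if_neg n0a.symm,
      if_neg n0b.symm]
    ring
  have hvw : v ⬝ᵥ gram k (s + 2) F *ᵥ w = 1 := by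
    simp only [hv, hw, Matrix.mulVec_add, dotProduct_add, add_dotProduct, Quad.bl_single, gram_apply, r0, r1,
      if_neg n1a.symm, if_neg n1b.symm, if_neg n0a.symm, if_neg n0b.symm, if_neg n01.symm]
    simp
  have hwv : w ⬝ᵥ gram k (s + 2) F *ᵥ v = 1 := by rw [Quad.bl_symm]; exact hvw
  have hvv := H.bl_self v
  have hww := H.bl_self w
  obtain ⟨M, hM⟩ : ∃ M : Matrix κ κ F, M = refl v * refl w * refl v * refl w := ⟨_, rfl⟩
  let g : GL κ F := invUnit (refl v) (refl_sq H v) * invUnit (refl w) (refl_sq H w) *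
    invUnit (refl v) (refl_sq H v) * invUnit (refl w) (refl_sq H w)
  have hgv : (g : Matrix κ κ F) = M := hM.symm
  refine ⟨g, ?_, fun hK => ?_⟩
  · rw [omegaGL_eq]
    have := Subgroup.commutator_mem_commutator (refl_mem H v hQv) (refl_mem H w hQw)
    rw [commutatorElement_def] at this
    exact this
  have tv : refl v *ᵥ (refl w *ᵥ v) = w := by
    rw [refl_mulVec w v, hvw, one_smul, refl_mulVec v, add_dotProduct, hvv, hwv, zero_add, one_smul]
    funext a; simp only [Pi.add_apply]; linear_combination v a * H.two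
  have tw : refl v *ᵥ (refl w *ᵥ w) = w + v := by
    rw [refl_mulVec w w, hww, zero_smul, add_zero, refl_mulVec v, hwv, one_smul]
  have hMv : M *ᵥ v = v + w := by
    rw [hM, ← Matrix.mulVec_mulVec, ← Matrix.mulVec_mulVec, ← Matrix.mulVec_mulVec, tv, tw]; abel
  have hMw : M *ᵥ w = v := by
    rw [hM, ← Matrix.mulVec_mulVec, ← Matrix.mulVec_mulVec, ← Matrix.mulVec_mulVec, tw, Matrix.mulVec_add,
      Matrix.mulVec_add, tw, tv]
    funext a; simp only [Pi.add_apply]; linear_combination w a * H.two
  have hD : ∀ x, ∃ α β : F, M *ᵥ x = x + α • v + β • w := by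
    intro x
    rw [hM, ← Matrix.mulVec_mulVec, ← Matrix.mulVec_mulVec, ← Matrix.mulVec_mulVec]
    simp only [refl_mulVec]
    generalize x ⬝ᵥ gram k (s + 2) F *ᵥ w = p
    generalize (x + p • w) ⬝ᵥ gram k (s + 2) F *ᵥ v = q
    generalize (x + p • w + q • v) ⬝ᵥ gram k (s + 2) F *ᵥ w = r
    generalize (x + p • w + q • v + r • w) ⬝ᵥ gram k (s + 2) F *ᵥ v = u
    exact ⟨q + u, p + r, by rw [add_smul, add_smul]; abel⟩
  set X : Matrix κ κ F := slot 0 L.A with hXd
  have hXcol : ∀ y : κ, ∀ x, X x y = if ∀ j, j ≠ 0 → x j = y j then L.A (x 0) (y 0) else 0 :=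
    fun y x => slot_apply 0 L.A x y
  have hXe0 : ∀ x, X x e0 = 0 := fun x => by rw [hXcol]; simp [e0, L.A_col_zero]
  have hXg1 : ∀ x, X x g1 = 0 := fun x => by rw [hXcol]; simp [g1, L.A_col_p]
  have hXe1 : ∀ x, X x e1 = if x = g1 then 1 else 0 := by
    intro x
    rw [hXcol]
    by_cases h : ∀ j, j ≠ 0 → x j = (e1 : κ) j
    · rw [if_pos h, show (e1 : κ) 0 = Fin.rev 0 from rfl, L.A_col_last]
      refine if_congr ⟨fun e => funext fun j => ?_, fun e => by rw [e]; simp [g1]⟩ rfl rfl
      rcases eq_or_ne j 0 with rfl | hj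
      · simp [g1, e]
      · rw [h j hj]; simp [g1, e1, Function.update_of_ne hj]
    · rw [if_neg h, if_neg]
      exact fun e => h fun j hj => by rw [e]; simp [g1, e1, Function.update_of_ne hj]
  have hXg0 : ∀ x, X x g0 = if x = e0 then 1 else 0 := by
    intro x
    rw [hXcol]
    by_cases h : ∀ j, j ≠ 0 → x j = (g0 : κ) j
    · rw [if_pos h, show (g0 : κ) 0 = 1 by simp [g0], L.A_col_one]
      refine if_congr ⟨fun e => funext fun j => ?_, fun e => by rw [e]; rfl⟩ rfl rfl
      rcases eq_or_ne j 0 with rfl | hj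
      · exact e
      · rw [h j hj]; simp [g0, e0, Function.update_of_ne hj]
    · rw [if_neg h, if_neg]
      exact fun e => h fun j hj => by rw [e]; simp [g0, e0, Function.update_of_ne hj]
  -- the commutant
  have hne : M * X ≠ X * M := by
    intro hcomm
    obtain ⟨α, β, hαβ⟩ := hD (X *ᵥ (v + w))
    have e1' : M *ᵥ (X *ᵥ (v + w)) = X *ᵥ (v + w) + X *ᵥ v := by
      rw [Matrix.mulVec_mulVec, hcomm, ← Matrix.mulVec_mulVec, Matrix.mulVec_add M, hMv, hMw, ← Matrix.mulVec_add]
    rw [e1'] at hαβ
    have hXv : X *ᵥ v = Pi.single g1 1 := by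
      funext x
      simp [hv, Matrix.mulVec_add, hXe0, hXe1, Pi.single_apply]
    have h : X *ᵥ v = α • v + β • w := add_left_cancel (hαβ.trans (add_assoc _ _ _))
    rw [hXv] at h
    have hα : α = 0 := by
      have := congrFun h e0
      simpa [hv, hw, Pi.single_apply, n01, n0a, n0b] using this.symm
    have hβ : β = 0 := by
      have := congrFun h g0
      simpa [hv, hw, Pi.single_apply, n0a.symm, n1a.symm, nab, hα] using this.symm
    have := congrFun h g1
    simp [hα, hβ] at this
  -- the image lies in the four tensors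
  set Sp : Submodule F (κ → F) :=
    { carrier := {x | ∀ a, ¬ InS a → x a = 0}
      add_mem' := fun {x y} hx hy a ha => by simp [hx a ha, hy a ha]
      zero_mem' := fun a _ => rfl
      smul_mem' := fun r x hx a ha => by simp [hx a ha] } with hSp
  have hsingle : ∀ b : κ, InS b → Pi.single b (1 : F) ∈ Sp := fun b hb a ha => by
    rw [Pi.single_apply, if_neg]; rintro rfl; exact ha hb
  have hvS : v ∈ Sp := Sp.add_mem (hsingle _ (Or.inl rfl)) (hsingle _ (Or.inr (Or.inl rfl)))
  have hwS : w ∈ Sp := Sp.add_mem (hsingle _ (Or.inr (Or.inl rfl)))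
    (Sp.add_mem (hsingle _ (Or.inr (Or.inr (Or.inl rfl)))) (hsingle _ (Or.inr (Or.inr (Or.inr rfl)))))
  have hXS : ∀ y ∈ Sp, X *ᵥ y ∈ Sp := by
    intro y hy a ha
    refine Finset.sum_eq_zero fun b _ => ?_
    show X a b * y b = 0
    by_cases hb : InS b
    · have hae0 : a ≠ e0 := fun e => ha (Or.inl e)
      have hag1 : a ≠ g1 := fun e => ha (Or.inr (Or.inr (Or.inr e)))
      rcases hb with rfl | rfl | rfl | rfl <;> simp [hXe0, hXg1, hXe1, hXg0, hae0, hag1]
    · rw [hy b hb, mul_zero]
  have hZimg : ∀ y, (M * X - X * M) *ᵥ y ∈ Sp := by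
    intro y
    obtain ⟨α, β, h1⟩ := hD (X *ᵥ y)
    obtain ⟨α', β', h2⟩ := hD y
    rw [Matrix.sub_mulVec, ← Matrix.mulVec_mulVec, ← Matrix.mulVec_mulVec, h1, h2, Matrix.mulVec_add,
      Matrix.mulVec_add, add_assoc (X *ᵥ y), add_assoc (X *ᵥ y), add_sub_add_left_eq_sub]
    refine Sp.sub_mem (Sp.add_mem (Sp.smul_mem _ hvS) (Sp.smul_mem _ hwS)) (Sp.add_mem ?_ ?_)
    · rw [Matrix.mulVec_smul]; exact Sp.smul_mem _ (hXS _ hvS)
    · rw [Matrix.mulVec_smul]; exact Sp.smul_mem _ (hXS _ hwS)
  set Mi : Matrix κ κ F := ((g⁻¹ : GL κ F) : Matrix κ κ F) with hMi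
  have hMMi : M * Mi = 1 := by rw [← hgv]; exact g.val_inv
  have hMiM : Mi * M = 1 := by rw [← hgv]; exact g.inv_val
  have hX : X ∈ locSpan L := slot_mem L 0 L.A_mem
  have hZ : M * X * Mi - X ∈ locSpan L := (locSpan L).sub_mem (by rw [← hgv]; exact (hK X hX).1) hX
  have heq : M * X * Mi - X = (M * X - X * M) * Mi := by rw [sub_mul, Matrix.mul_assoc X, hMMi, Matrix.mul_one]
  have h0 : M * X * Mi - X = 0 := by
    refine span_eq_zero L hZ fun a b ha => ?_
    have := hZimg (Mi *ᵥ Pi.single b 1) a ha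
    rwa [Matrix.mulVec_mulVec, ← heq, Matrix.mulVec_single_one] at this
  refine hne (sub_eq_zero.1 ?_)
  calc M * X - X * M = (M * X - X * M) * (Mi * M) := by rw [hMiM, Matrix.mul_one]
    _ = 0 := by rw [← Matrix.mul_assoc, ← heq, h0, Matrix.zero_mul]

include L H in
/-- The stabiliser of the decomposition in the commutator subgroup is not maximal. -/
theorem exists_between : ∃ K : Subgroup (GL κ F),
    Cfsg.Geo.tensorWreathStandard k (s + 2) F ⊓ Cfsg.Geo.omegaGL Q < K ∧ K < Cfsg.Geo.omegaGL Q := by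
  refine ⟨spanStab L ⊓ Cfsg.Geo.omegaGL Q, ⟨fun g hg => ⟨standard_le_spanStab L H hg.1 ?_, hg.2⟩, fun h => ?_⟩,
    ⟨inf_le_right, fun h => ?_⟩⟩
  · have hp := omegaGL_preserves hg.2
    ext a b
    have e := H.polar ((g : Matrix κ κ F) *ᵥ Pi.single a 1) ((g : Matrix κ κ F) *ᵥ Pi.single b 1)
    rw [QuadraticMap.polar, ← Matrix.mulVec_add, hp, hp, hp,
      show Q (Pi.single a 1 + Pi.single b 1) - Q (Pi.single a 1) - Q (Pi.single b 1) =
        QuadraticMap.polar Q (Pi.single a 1) (Pi.single b 1) from rfl, H.polar, Quad.bl_single] at e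
    rw [mul_left_cancel₀ H.c_ne e, Matrix.mulVec_mulVec, Matrix.mulVec_single_one, Matrix.mulVec_single_one]
    simp only [Matrix.mul_apply, dotProduct, Matrix.col_apply, Matrix.transpose_apply, Finset.sum_mul,
      Finset.mul_sum, mul_assoc]
    exact Finset.sum_comm
  · exact mix_not_standard L (mixMat_sq L H) (h ⟨mix_mem_spanStab L H, mix_mem_omega L H⟩).1
  · obtain ⟨g, hg, hg'⟩ := exists_not_mem_spanStab L H
    exact hg' (h hg).1

end Main

end Cfsg.Agent.H9.Wreath
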