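import Mathlib

/-!
Local data on one tensor factor of dimension two or four in characteristic two: a space of matrices whose
squares are scalar, invariant under the similitudes of the anti-diagonal alternating form.
-/

set_option autoImplicit false

namespace Cfsg.Agent.H9.Wreath

open Matrix

variable {F : Type*} [Field F] {k : ℕ}

/-- The anti-diagonal matrix. -/
def antiJ (k : ℕ) (F : Type*) [Field F] : Matrix (Fin k) (Fin k) F :=
  Matrix.of fun a b => if b = a.rev then 1 else 0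

lemma antiJ_apply (a b : Fin k) : antiJ k F a b = if b = a.rev then 1 else 0 := rfl

lemma antiJ_transpose : (antiJ k F)ᵀ = antiJ k F := by
  ext a b
  simp only [transpose_apply, antiJ_apply]
  exact if_congr (by constructor <;> intro h <;> rw [h, Fin.rev_rev]) rfl rfl

/-- The columns of a matrix have at most one non-zero entry. -/
def Mono (A : Matrix (Fin k) (Fin k) F) : Prop :=
  ∀ y, ∃ (p : Fin k) (s : F), ∀ x, A x y = if x = p then s else 0

/-- The data on one factor. -/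
structure Loc (k t : ℕ) (F : Type*) [Field F] [NeZero k] where
  U : Submodule F (Matrix (Fin k) (Fin k) F)
  diag : ∀ M ∈ U, ∀ a, M a a = M 0 0
  sq : ∀ M ∈ U, ∃ s : F, M * M = s • (1 : Matrix (Fin k) (Fin k) F)
  conj : ∀ (g gi : Matrix (Fin k) (Fin k) F) (μ : F), g * gi = 1 → gi * g = 1 →
    gᵀ * antiJ k F * g = μ • antiJ k F → ∀ M ∈ U, g * M * gi ∈ U
  A : Matrix (Fin k) (Fin k) F
  B : Matrix (Fin k) (Fin k) F
  h : Matrix (Fin k) (Fin k) F
  hi : Matrix (Fin k) (Fin k) F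
  r : F
  r_ne : r ≠ 0
  A_mem : A ∈ U
  B_mem : B ∈ U
  A_sq : A * A = 0
  B_sq : B * B = 0
  A_mono : Mono A
  B_mono : Mono B
  A_symm : (antiJ k F * A)ᵀ = antiJ k F * A
  B_symm : (antiJ k F * B)ᵀ = antiJ k F * B
  h_inv : h * hi = 1
  hi_inv : hi * h = 1
  h_iso : hᵀ * antiJ k F * h = antiJ k F
  h_conj : h * B * hi = B + r • A
  B_alt : (∀ a, (antiJ k F * B) a a = 0) ∨ 3 ≤ t
  A_col_zero : ∀ x, A x 0 = 0
  A_col_one : ∀ x, A x 1 = if x = 0 then 1 else 0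
  A_col_last : ∀ x, A x (Fin.rev 0) = if x = Fin.rev 1 then 1 else 0
  A_col_p : ∀ x, A x (Fin.rev 1) = 0
  rev_ne : ∀ a : Fin k, Fin.rev a ≠ a
  one_ne : (1 : Fin k) ≠ 0
  size : k = 4 ∨ 3 ≤ t

namespace Loc

variable {t : ℕ} [NeZero k] (L : Loc k t F)

lemma anticomm {M N : Matrix (Fin k) (Fin k) F} (hM : M ∈ L.U) (hN : N ∈ L.U) :
    ∃ s : F, M * N + N * M = s • (1 : Matrix (Fin k) (Fin k) F) := by
  obtain ⟨a, ha⟩ := L.sq M hM
  obtain ⟨b, hb⟩ := L.sq N hN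
  obtain ⟨c, hc⟩ := L.sq _ (L.U.add_mem hM hN)
  refine ⟨c - a - b, ?_⟩
  rw [sub_smul, sub_smul, ← ha, ← hb, ← hc]
  noncomm_ring

end Loc

/-- Two-dimensional factors. -/
noncomputable def locTwo (t : ℕ) (ht : 3 ≤ t) (h2 : (2 : F) = 0) (l : F) (hl : l ≠ 0) (hl1 : l ≠ 1) :
    Loc 2 t F where
  U :=
    { carrier := {M | M 1 1 = M 0 0}
      add_mem' := by intro a b (ha : a 1 1 = a 0 0) (hb : b 1 1 = b 0 0); simp [ha, hb]
      zero_mem' := by simp
      smul_mem' := by intro c a (ha : a 1 1 = a 0 0); simp [ha] }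
  diag M hM a := by
    fin_cases a
    · rfl
    · exact hM
  sq M hM := by
    refine ⟨M 0 0 * M 0 0 + M 0 1 * M 1 0, ?_⟩
    have e : M 1 1 = M 0 0 := hM
    ext i j
    fin_cases i <;> fin_cases j <;> simp [Matrix.mul_apply, Fin.sum_univ_two, e]
    · linear_combination M 0 1 * M 0 0 * h2
    · linear_combination M 1 0 * M 0 0 * h2
    · ring
  conj g gi μ hg hgi _ M hM := by
    show (g * M * gi) 1 1 = (g * M * gi) 0 0
    have e : M 1 1 = M 0 0 := hM
    have h := Matrix.trace_mul_cycle g M gi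
    rw [hgi, Matrix.one_mul, Matrix.trace_fin_two, Matrix.trace_fin_two, e] at h
    linear_combination h + (M 0 0 - (g * M * gi) 0 0) * h2
  A := !![0, 1; 0, 0]
  B := !![0, 1; 0, 0]
  h := !![l, 0; 0, l⁻¹]
  hi := !![l⁻¹, 0; 0, l]
  r := l * l - 1
  r_ne := by
    intro h
    have h0 : (l - 1) * (l - 1) = 0 := by linear_combination h - (l - 1) * h2
    exact hl1 (sub_eq_zero.mp ((mul_eq_zero.mp h0).elim id id))
  A_mem := by show (_ : F) = _; simp
  B_mem := by show (_ : F) = _; simp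
  A_sq := by ext i j; fin_cases i <;> fin_cases j <;> simp
  B_sq := by ext i j; fin_cases i <;> fin_cases j <;> simp
  A_mono y := ⟨0, if y = 1 then 1 else 0, fun x => by fin_cases x <;> fin_cases y <;> simp⟩
  B_mono y := ⟨0, if y = 1 then 1 else 0, fun x => by fin_cases x <;> fin_cases y <;> simp⟩
  A_symm := by
    ext i j; fin_cases i <;> fin_cases j <;>
      simp [Matrix.mul_apply, Fin.sum_univ_two, antiJ_apply, Fin.rev]
  B_symm := by
    ext i j; fin_cases i <;> fin_cases j <;>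
      simp [Matrix.mul_apply, Fin.sum_univ_two, antiJ_apply, Fin.rev]
  h_inv := by ext i j; fin_cases i <;> fin_cases j <;> simp [hl]
  hi_inv := by ext i j; fin_cases i <;> fin_cases j <;> simp [hl]
  h_iso := by
    ext i j; fin_cases i <;> fin_cases j <;>
      simp [Matrix.mul_apply, Fin.sum_univ_two, antiJ_apply, Fin.rev, hl]
  h_conj := by
    ext i j; fin_cases i <;> fin_cases j <;> simp [Matrix.mul_apply, Fin.sum_univ_two]
  B_alt := Or.inr ht
  A_col_zero x := by fin_cases x <;> simp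
  A_col_one x := by fin_cases x <;> simp
  A_col_last x := by fin_cases x <;> simp [Fin.rev]
  A_col_p x := by fin_cases x <;> simp [Fin.rev]
  rev_ne a := by fin_cases a <;> decide
  one_ne := by decide
  size := Or.inr ht

/-- The five-dimensional space on a four-dimensional factor. -/
def U4 (F : Type*) [Field F] : Submodule F (Matrix (Fin 4) (Fin 4) F) where
  carrier := {M | M 3 0 = 0 ∧ M 2 1 = 0 ∧ M 1 2 = 0 ∧ M 0 3 = 0 ∧ M 3 3 = M 0 0 ∧ M 2 2 = M 1 1 ∧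
    M 2 3 = M 0 1 ∧ M 1 3 = M 0 2 ∧ M 3 1 = M 2 0 ∧ M 3 2 = M 1 0 ∧ M 1 1 = M 0 0}
  add_mem' := by
    rintro a b ⟨a1, a2, a3, a4, a5, a6, a7, a8, a9, a10, a11⟩ ⟨b1, b2, b3, b4, b5, b6, b7, b8, b9, b10, b11⟩
    simp [a1, a2, a3, a4, a5, a6, a7, a8, a9, a10, a11, b1, b2, b3, b4, b5, b6, b7, b8, b9, b10, b11]
  zero_mem' := by simp
  smul_mem' := by
    rintro c a ⟨a1, a2, a3, a4, a5, a6, a7, a8, a9, a10, a11⟩
    simp [a1, a2, a3, a4, a5, a6, a7, a8, a9, a10, a11]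

lemma mem_U4 {M : Matrix (Fin 4) (Fin 4) F} : M ∈ U4 F ↔ M 3 0 = 0 ∧ M 2 1 = 0 ∧ M 1 2 = 0 ∧ M 0 3 = 0 ∧
    M 3 3 = M 0 0 ∧ M 2 2 = M 1 1 ∧ M 2 3 = M 0 1 ∧ M 1 3 = M 0 2 ∧ M 3 1 = M 2 0 ∧ M 3 2 = M 1 0 ∧
    M 1 1 = M 0 0 :=
  Iff.rfl

lemma antiJ4_mul (M : Matrix (Fin 4) (Fin 4) F) (a b : Fin 4) : (antiJ 4 F * M) a b = M a.rev b := by
  simp [Matrix.mul_apply, antiJ_apply]

lemma U4_of_alt {M : Matrix (Fin 4) (Fin 4) F} (h2 : (2 : F) = 0) (hs : (antiJ 4 F * M)ᵀ = antiJ 4 F * M)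
    (hd : ∀ a, (antiJ 4 F * M) a a = 0) {s : F} (hsq : M * M = s • (1 : Matrix (Fin 4) (Fin 4) F)) :
    M ∈ U4 F := by
  have e : ∀ a b : Fin 4, M b.rev a = M a.rev b := fun a b => by
    have := congrFun (congrFun hs a) b
    rwa [transpose_apply, antiJ4_mul, antiJ4_mul] at this
  have d : ∀ a : Fin 4, M a.rev a = 0 := fun a => (antiJ4_mul M a a).symm.trans (hd a)
  have d0 : M 3 0 = 0 := d 0
  have d1 : M 2 1 = 0 := d 1
  have d2 : M 1 2 = 0 := d 2
  have d3 : M 0 3 = 0 := d 3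
  have e03 : M 0 0 = M 3 3 := e 0 3
  have e12 : M 1 1 = M 2 2 := e 1 2
  have e13 : M 0 1 = M 2 3 := e 1 3
  have e23 : M 0 2 = M 1 3 := e 2 3
  have e01 : M 2 0 = M 3 1 := e 0 1
  have e02 : M 1 0 = M 3 2 := e 0 2
  have h00 := congrFun (congrFun hsq 0) 0
  have h11 := congrFun (congrFun hsq 1) 1
  simp [Matrix.mul_apply, Fin.sum_univ_four, d0, d1, d2, d3, ← e03, ← e12, ← e13, ← e23, ← e01, ← e02] at h00 h11
  have h0 : (M 1 1 - M 0 0) * (M 1 1 - M 0 0) = 0 := by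
    linear_combination h11 - h00 + (M 0 0 * M 0 0 - M 0 0 * M 1 1) * h2
  exact mem_U4.mpr ⟨d0, d1, d2, d3, e03.symm, e12.symm, e13.symm, e23.symm, e01.symm, e02.symm,
    sub_eq_zero.mp ((mul_eq_zero.mp h0).elim id id)⟩

lemma congr_alt4 (h2 : (2 : F) = 0) (S K : Matrix (Fin 4) (Fin 4) F) (hs : Sᵀ = S) (hd : ∀ a, S a a = 0)
    (a : Fin 4) : (Kᵀ * S * K) a a = 0 := by
  have e : ∀ i j, S j i = S i j := fun i j => congrFun (congrFun hs i) j
  simp [Matrix.mul_apply, Fin.sum_univ_four, hd, e 0 1, e 0 2, e 0 3, e 1 2, e 1 3, e 2 3]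
  linear_combination (K 0 a * S 0 1 * K 1 a + K 0 a * S 0 2 * K 2 a + K 0 a * S 0 3 * K 3 a +
    K 1 a * S 1 2 * K 2 a + K 1 a * S 1 3 * K 3 a + K 2 a * S 2 3 * K 3 a) * h2

lemma U4_sq (h2 : (2 : F) = 0) {M : Matrix (Fin 4) (Fin 4) F} (hM : M ∈ U4 F) :
    M * M = (M 0 0 * M 0 0 + M 0 1 * M 1 0 + M 0 2 * M 2 0) • (1 : Matrix (Fin 4) (Fin 4) F) := by
  obtain ⟨m1, m2, m3, m4, m5, m6, m7, m8, m9, m10, m11⟩ := mem_U4.mp hM
  ext i j
  fin_cases i <;> fin_cases j <;>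
    simp [Matrix.mul_apply, Fin.sum_univ_four, m1, m2, m3, m4, m5, m6, m7, m8, m9, m10, m11] <;>
    ring_nf <;> simp [h2]

lemma U4_symm {M : Matrix (Fin 4) (Fin 4) F} (hM : M ∈ U4 F) :
    (antiJ 4 F * M)ᵀ = antiJ 4 F * M ∧ ∀ a, (antiJ 4 F * M) a a = 0 := by
  obtain ⟨m1, m2, m3, m4, m5, m6, m7, m8, m9, m10, m11⟩ := mem_U4.mp hM
  constructor
  · ext a b
    rw [transpose_apply, antiJ4_mul, antiJ4_mul]
    fin_cases a <;> fin_cases b <;>
      simp [Fin.rev, m1, m2, m3, m4, m5, m6, m7, m8, m9, m10, m11]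
  · intro a
    rw [antiJ4_mul]
    fin_cases a <;> simp [Fin.rev, m1, m2, m3, m4]

/-- Four-dimensional factors. -/
noncomputable def locFour (t : ℕ) (h2 : (2 : F) = 0) : Loc 4 t F where
  U := U4 F
  diag M hM a := by
    obtain ⟨-, -, -, -, m5, m6, -, -, -, -, m11⟩ := mem_U4.mp hM
    fin_cases a <;> simp [m5, m6, m11]
  sq M hM := ⟨_, U4_sq h2 hM⟩
  conj g gi μ hg hgi hμ M hM := by
    obtain ⟨hs, hd⟩ := U4_symm hM
    have key : antiJ 4 F * (g * M * gi) = μ • (giᵀ * (antiJ 4 F * M) * gi) := by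
      have h1 : giᵀ * gᵀ = 1 := by rw [← transpose_mul, hg, transpose_one]
      calc antiJ 4 F * (g * M * gi) = giᵀ * gᵀ * (antiJ 4 F * (g * M * gi)) := by rw [h1, Matrix.one_mul]
        _ = giᵀ * ((gᵀ * antiJ 4 F * g) * M * gi) := by simp only [Matrix.mul_assoc]
        _ = μ • (giᵀ * (antiJ 4 F * M) * gi) := by
          rw [hμ]; simp only [Matrix.smul_mul, Matrix.mul_smul, Matrix.mul_assoc]
    refine U4_of_alt h2 ?_ (fun a => ?_) (s := M 0 0 * M 0 0 + M 0 1 * M 1 0 + M 0 2 * M 2 0) ?_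
    · rw [key, transpose_smul, transpose_mul, transpose_mul (giᵀ), transpose_transpose, hs]
      simp only [Matrix.mul_assoc]
    · rw [key, Matrix.smul_apply, congr_alt4 h2 _ _ hs hd, smul_zero]
    · calc g * M * gi * (g * M * gi) = g * M * (gi * g) * (M * gi) := by simp only [Matrix.mul_assoc]
        _ = g * (M * M) * gi := by rw [hgi, Matrix.mul_one]; simp only [Matrix.mul_assoc]
        _ = _ := by rw [U4_sq h2 hM, Matrix.mul_smul, Matrix.mul_one, Matrix.smul_mul, hg]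
  A := !![0, 1, 0, 0; 0, 0, 0, 0; 0, 0, 0, 1; 0, 0, 0, 0]
  B := !![0, 0, 1, 0; 0, 0, 0, 1; 0, 0, 0, 0; 0, 0, 0, 0]
  h := !![1, 0, 0, 0; 0, 1, 0, 0; 0, 1, 1, 0; 0, 0, 0, 1]
  hi := !![1, 0, 0, 0; 0, 1, 0, 0; 0, 1, 1, 0; 0, 0, 0, 1]
  r := 1
  r_ne := one_ne_zero
  A_mem := by simp [mem_U4]
  B_mem := by simp [mem_U4]
  A_sq := by ext i j; fin_cases i <;> fin_cases j <;> simp
  B_sq := by ext i j; fin_cases i <;> fin_cases j <;> simp
  A_mono y := ⟨if y = 1 then 0 else 2, if y = 1 ∨ y = 3 then 1 else 0,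
    fun x => by fin_cases x <;> fin_cases y <;> simp⟩
  B_mono y := ⟨if y = 2 then 0 else 1, if y = 2 ∨ y = 3 then 1 else 0,
    fun x => by fin_cases x <;> fin_cases y <;> simp⟩
  A_symm := (U4_symm (M := _) (by simp [mem_U4])).1
  B_symm := (U4_symm (M := _) (by simp [mem_U4])).1
  h_inv := by
    ext i j; fin_cases i <;> fin_cases j <;> simp [Matrix.mul_apply, Fin.sum_univ_four] <;>
      linear_combination h2
  hi_inv := by
    ext i j; fin_cases i <;> fin_cases j <;> simp [Matrix.mul_apply, Fin.sum_univ_four] <;>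
      linear_combination h2
  h_iso := by
    ext i j; fin_cases i <;> fin_cases j <;>
      simp [Matrix.mul_apply, Fin.sum_univ_four, antiJ_apply, Fin.rev] <;> linear_combination h2
  h_conj := by
    ext i j; fin_cases i <;> fin_cases j <;> simp [Matrix.mul_apply, Fin.sum_univ_four]
  B_alt := Or.inl (U4_symm (M := _) (by simp [mem_U4])).2
  A_col_zero x := by fin_cases x <;> simp
  A_col_one x := by fin_cases x <;> simp
  A_col_last x := by fin_cases x <;> simp [Fin.rev]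
  A_col_p x := by fin_cases x <;> simp [Fin.rev]
  rev_ne a := by fin_cases a <;> decide
  one_ne := by decide
  size := Or.inl rfl

end Cfsg.Agent.H9.Wreath
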