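import Cfsg.Agent.H99.Aschbacher.TensorPower
import Cfsg.Agent.H9.WreathLocal

/-!
Matrices acting on one factor of a tensor power; the space spanned by the local spaces and its stabiliser.
-/

set_option autoImplicit false

namespace Cfsg.Agent.H9.Wreath

open Matrix Cfsg.Agent.H99.Asch

variable {F : Type*} [Field F] {k t : ℕ}

/-- A matrix on one factor. -/
def slot (i : Fin t) (A : Matrix (Fin k) (Fin k) F) : Matrix (Fin t → Fin k) (Fin t → Fin k) F :=
  tpow (Function.update 1 i A)

lemma update_one_mul (i : Fin t) (A B : Matrix (Fin k) (Fin k) F) :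
    Function.update (1 : Fin t → Matrix (Fin k) (Fin k) F) i A *
        Function.update (1 : Fin t → Matrix (Fin k) (Fin k) F) i B =
      Function.update (1 : Fin t → Matrix (Fin k) (Fin k) F) i (A * B) := by
  funext j
  rcases eq_or_ne j i with rfl | h
  · simp
  · simp [Function.update_of_ne h]

lemma slot_mul (i : Fin t) (A B : Matrix (Fin k) (Fin k) F) : slot i A * slot i B = slot i (A * B) := by
  rw [slot, slot, ← tpow_mul, update_one_mul]; rfl

lemma slot_one (i : Fin t) : slot i (1 : Matrix (Fin k) (Fin k) F) = 1 := by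
  rw [slot, show Function.update (1 : Fin t → Matrix (Fin k) (Fin k) F) i 1 = 1 from
    Function.update_eq_self i 1, tpow_one]

lemma slot_comm {i j : Fin t} (h : i ≠ j) (A B : Matrix (Fin k) (Fin k) F) :
    slot i A * slot j B = slot j B * slot i A := by
  rw [slot, slot, ← tpow_mul, ← tpow_mul]
  congr 1
  funext l
  rcases eq_or_ne l i with rfl | hi
  · simp [Function.update_of_ne h]
  · simp [Function.update_of_ne hi]

lemma slot_apply (i : Fin t) (A : Matrix (Fin k) (Fin k) F) (a b : Fin t → Fin k) :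
    slot i A a b = if ∀ j, j ≠ i → a j = b j then A (a i) (b i) else 0 := by
  rw [slot, tpow_apply, ← Finset.mul_prod_erase _ _ (Finset.mem_univ i), Function.update_self]
  split_ifs with h
  · rw [Finset.prod_eq_one, mul_one]
    intro j hj
    have hji := Finset.ne_of_mem_erase hj
    simp [Function.update_of_ne hji, h j hji]
  · push_neg at h
    obtain ⟨j, hji, hj⟩ := h
    rw [Finset.prod_eq_zero (Finset.mem_erase.2 ⟨hji, Finset.mem_univ j⟩), mul_zero]
    simp [Function.update_of_ne hji, Matrix.one_apply, hj]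

lemma slot_add (i : Fin t) (A B : Matrix (Fin k) (Fin k) F) : slot i (A + B) = slot i A + slot i B := by
  ext a b
  rw [Matrix.add_apply, slot_apply, slot_apply, slot_apply]
  split_ifs <;> simp

lemma slot_smul (i : Fin t) (c : F) (A : Matrix (Fin k) (Fin k) F) : slot i (c • A) = c • slot i A := by
  ext a b
  rw [Matrix.smul_apply, slot_apply, slot_apply]
  split_ifs <;> simp

lemma slot_zero (i : Fin t) : slot i (0 : Matrix (Fin k) (Fin k) F) = 0 := by
  simpa using slot_smul i (0 : F) (0 : Matrix (Fin k) (Fin k) F)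

lemma slot_transpose (i : Fin t) (A : Matrix (Fin k) (Fin k) F) : (slot i A)ᵀ = slot i Aᵀ := by
  rw [slot, slot, tpow_transpose]
  congr 1
  funext j
  rcases eq_or_ne j i with rfl | h
  · simp
  · simp [Function.update_of_ne h]

lemma tpow_conj_slot (c d : Fin t → Matrix (Fin k) (Fin k) F) (hcd : ∀ j, c j * d j = 1) (i : Fin t)
    (A : Matrix (Fin k) (Fin k) F) : tpow c * slot i A * tpow d = slot i (c i * A * d i) := by
  rw [slot, slot, ← tpow_mul, ← tpow_mul]
  congr 1
  funext j
  rcases eq_or_ne j i with rfl | h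
  · simp
  · simp [Function.update_of_ne h, hcd]

lemma permMat_conj_slot (σ : Equiv.Perm (Fin t)) (i : Fin t) (A : Matrix (Fin k) (Fin k) F) :
    permMat σ * slot i A * permMat σ.symm = slot (σ i) A := by
  rw [slot, slot, permMat_conj]
  congr 1
  funext j
  rcases eq_or_ne j (σ i) with rfl | h
  · simp
  · have h' : σ.symm j ≠ i := fun e => h (by rw [← e, Equiv.apply_symm_apply])
    simp [Function.update_of_ne h, Function.update_of_ne h']

variable [NeZero k]

/-- The map spanning the sum of the local spaces. -/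
noncomputable def spanMap (L : Loc k t F) : (Fin t → L.U) →ₗ[F] Matrix (Fin t → Fin k) (Fin t → Fin k) F where
  toFun A := ∑ i, slot i (A i : Matrix (Fin k) (Fin k) F)
  map_add' A B := by simp [slot_add, Finset.sum_add_distrib]
  map_smul' c A := by simp [slot_smul, Finset.smul_sum]

/-- The sum of the local spaces. -/
noncomputable def locSpan (L : Loc k t F) : Submodule F (Matrix (Fin t → Fin k) (Fin t → Fin k) F) :=
  LinearMap.range (spanMap L)

lemma slot_mem (L : Loc k t F) (i : Fin t) {A : Matrix (Fin k) (Fin k) F} (hA : A ∈ L.U) :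
    slot i A ∈ locSpan L := by
  refine ⟨Pi.single i ⟨A, hA⟩, ?_⟩
  show ∑ j, slot j ((Pi.single i (⟨A, hA⟩ : L.U) : Fin t → L.U) j : Matrix (Fin k) (Fin k) F) = _
  rw [Finset.sum_eq_single i]
  · simp
  · intro j _ hj
    simp [Pi.single_eq_of_ne hj, slot_zero]
  · simp

/-- The stabiliser of the sum of the local spaces. -/
def spanStab (L : Loc k t F) : Subgroup (GL (Fin t → Fin k) F) where
  carrier := {g | ∀ X ∈ locSpan L, (g : Matrix _ _ F) * X * ((g⁻¹ : GL _ F) : Matrix _ _ F) ∈ locSpan L ∧
    ((g⁻¹ : GL _ F) : Matrix _ _ F) * X * (g : Matrix _ _ F) ∈ locSpan L}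
  one_mem' := by intro X hX; simpa using hX
  mul_mem' := by
    intro a b ha hb X hX
    constructor
    · have := (ha _ (hb X hX).1).1
      simpa [Units.val_mul, Matrix.mul_assoc] using this
    · have := (hb _ (ha X hX).2).2
      simpa [Units.val_mul, Matrix.mul_assoc] using this
  inv_mem' := by
    intro a ha X hX
    rw [inv_inv]
    exact ⟨(ha X hX).2, (ha X hX).1⟩

lemma mem_spanStab_of_slots (L : Loc k t F) (g : GL (Fin t → Fin k) F)
    (h : ∀ i, ∀ A ∈ L.U, (g : Matrix _ _ F) * slot i A * ((g⁻¹ : GL _ F) : Matrix _ _ F) ∈ locSpan L ∧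
      ((g⁻¹ : GL _ F) : Matrix _ _ F) * slot i A * (g : Matrix _ _ F) ∈ locSpan L) :
    g ∈ spanStab L := by
  rintro _ ⟨A, rfl⟩
  show _ * (∑ i, slot i (A i : Matrix (Fin k) (Fin k) F)) * _ ∈ _ ∧ _ * (∑ i, slot i (A i : Matrix (Fin k) (Fin k) F)) * _ ∈ _
  constructor
  · rw [Finset.mul_sum, Finset.sum_mul]
    exact Submodule.sum_mem _ fun i _ => (h i _ (A i).2).1
  · rw [Finset.mul_sum, Finset.sum_mul]
    exact Submodule.sum_mem _ fun i _ => (h i _ (A i).2).2

/-- The Gram matrix of the tensor power of the anti-diagonal form. -/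
def gram (k t : ℕ) (F : Type*) [Field F] : Matrix (Fin t → Fin k) (Fin t → Fin k) F :=
  tpow fun _ => antiJ k F

omit [NeZero k] in
lemma gram_apply (a b : Fin t → Fin k) : gram k t F a b = if b = fun j => (a j).rev then 1 else 0 := by
  rw [gram, tpow_apply]
  split_ifs with h
  · subst h; exact Finset.prod_eq_one fun j _ => by simp [antiJ_apply]
  · obtain ⟨j, hj⟩ := Function.ne_iff.1 h
    exact Finset.prod_eq_zero (Finset.mem_univ j) (by simp [antiJ_apply, hj])

omit [NeZero k] in
lemma gram_transpose : (gram k t F)ᵀ = gram k t F := by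
  rw [gram, tpow_transpose]; simp [antiJ_transpose]

omit [NeZero k] in
lemma gram_slot (i : Fin t) (A : Matrix (Fin k) (Fin k) F) :
    gram k t F * slot i A = tpow (Function.update (fun _ => antiJ k F) i (antiJ k F * A)) := by
  rw [gram, slot, ← tpow_mul]
  congr 1
  funext j
  rcases eq_or_ne j i with rfl | h
  · simp
  · simp [Function.update_of_ne h]

omit [NeZero k] in
lemma slot_iso (i : Fin t) {h : Matrix (Fin k) (Fin k) F} (hh : hᵀ * antiJ k F * h = antiJ k F) :
    (slot i h)ᵀ * gram k t F * slot i h = gram k t F := by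
  rw [slot_transpose, gram, slot, slot, ← tpow_mul, ← tpow_mul]
  congr 1
  funext j
  rcases eq_or_ne j i with rfl | hj
  · simpa using hh
  · simp [Function.update_of_ne hj]

omit [NeZero k] in
lemma slot_symm (i : Fin t) {A : Matrix (Fin k) (Fin k) F} (hA : (antiJ k F * A)ᵀ = antiJ k F * A) :
    (gram k t F * slot i A)ᵀ = gram k t F * slot i A := by
  rw [gram_slot, tpow_transpose]
  congr 1
  funext j
  rcases eq_or_ne j i with rfl | h
  · simpa using hA
  · simp [Function.update_of_ne h, antiJ_transpose]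

/-- A factor equation from an equation of tensor products. -/
lemma exists_scalar_of_tpow_eq (c : Fin t → Matrix (Fin k) (Fin k) F) (h : tpow c = gram k t F) (i : Fin t) :
    ∃ μ : F, μ ≠ 0 ∧ c i = μ • antiJ k F := by
  classical
  let a : Fin t → Fin k := fun _ => 0
  have key : ∀ x y, c i x y * ∏ j ∈ Finset.univ.erase i, c j (a j) (a j).rev = antiJ k F x y := by
    intro x y
    have := congrFun (congrFun h (Function.update a i x)) (Function.update (fun j => (a j).rev) i y)
    rw [tpow_apply, gram, tpow_apply, ← Finset.mul_prod_erase _ _ (Finset.mem_univ i),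
      ← Finset.mul_prod_erase _ _ (Finset.mem_univ i), Function.update_self, Function.update_self] at this
    have e1 : ∀ f : Fin t → Fin k → Fin k → F,
        (∏ j ∈ Finset.univ.erase i, f j (Function.update a i x j) (Function.update (fun j => (a j).rev) i y j)) =
        ∏ j ∈ Finset.univ.erase i, f j (a j) (a j).rev := fun f =>
      Finset.prod_congr rfl fun j hj => by
        rw [Function.update_of_ne (Finset.ne_of_mem_erase hj), Function.update_of_ne (Finset.ne_of_mem_erase hj)]
    rw [e1 (fun j x y => c j x y), e1 (fun _ x y => antiJ k F x y)] at this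
    rw [this]
    simp [antiJ_apply]
  set P := ∏ j ∈ Finset.univ.erase i, c j (a j) (a j).rev with hP
  have hP0 : P ≠ 0 := by
    intro h0
    have := key 0 (0 : Fin k).rev
    rw [h0, mul_zero] at this
    simp [antiJ_apply] at this
  refine ⟨P⁻¹, inv_ne_zero hP0, ?_⟩
  ext x y
  rw [Matrix.smul_apply, smul_eq_mul, ← key x y]
  field_simp

omit [NeZero k] in
lemma permMat_gram (σ : Equiv.Perm (Fin t)) :
    (permMat σ : Matrix (Fin t → Fin k) (Fin t → Fin k) F) * gram k t F * permMat σ.symm = gram k t F := by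
  rw [gram, permMat_conj]; rfl

omit [NeZero k] in
/-- Elements of the standard group are pure tensors followed by a permutation. -/
lemma exists_decomp {g : GL (Fin t → Fin k) F} (hg : g ∈ Cfsg.Geo.tensorWreathStandard k t F) :
    ∃ (c : Fin t → GL (Fin k) F) (σ : Equiv.Perm (Fin t)),
      g = tpowUnit c * permUnit σ := by
  have hperm : ∀ (σ τ : Equiv.Perm (Fin t)),
      (permUnit (σ * τ) : GL (Fin t → Fin k) F) = permUnit σ * permUnit τ := fun σ τ => Units.ext <| by
    ext x y
    show permMat (σ * τ) x y = (permMat σ * permMat τ : Matrix _ _ F) x y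
    rw [permMat_mul_apply]
    simp only [permMat, Matrix.of_apply]
    rfl
  have hswap : ∀ (σ : Equiv.Perm (Fin t)) (c : Fin t → GL (Fin k) F),
      permUnit σ * tpowUnit c = tpowUnit (c ∘ σ.symm) * permUnit σ := fun σ c => by
    rw [← mul_inv_eq_iff_eq_mul]
    exact Units.ext (by
      show permMat σ * tpow (fun i => (c i : Matrix (Fin k) (Fin k) F)) * permMat σ.symm = _
      rw [permMat_conj]; rfl)
  have htmul : ∀ c d : Fin t → GL (Fin k) F, tpowUnit (c * d) = tpowUnit c * tpowUnit d := fun c d =>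
    Units.ext (by
      show tpow (fun i => ((c i * d i : GL (Fin k) F) : Matrix (Fin k) (Fin k) F)) = _
      rw [show (tpowUnit c * tpowUnit d : GL (Fin t → Fin k) F).val = tpow (fun i => (c i : Matrix (Fin k) (Fin k) F)) *
        tpow (fun i => (d i : Matrix (Fin k) (Fin k) F)) from rfl, ← tpow_mul]
      rfl)
  have hinv : ∀ c : Fin t → GL (Fin k) F, (tpowUnit c)⁻¹ = tpowUnit c⁻¹ := fun c =>
    inv_eq_of_mul_eq_one_right (by rw [← htmul, mul_inv_cancel]; exact Units.ext tpow_one)
  have hpinv : ∀ σ : Equiv.Perm (Fin t), (permUnit σ : GL (Fin t → Fin k) F)⁻¹ = permUnit σ⁻¹ := fun σ =>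
    Units.ext rfl
  induction hg using Subgroup.closure_induction with
  | mem g hg =>
    rcases hg with ⟨c, hc⟩ | ⟨σ, hσ⟩
    · refine ⟨c, 1, ?_⟩
      rw [show (permUnit 1 : GL (Fin t → Fin k) F) = 1 from Units.ext (by
        ext x y; simp [permUnit, permMat, Matrix.one_apply, eq_comm]), mul_one]
      exact Units.ext (by ext x y; exact hc x y)
    · refine ⟨1, σ, ?_⟩
      rw [show (tpowUnit 1 : GL (Fin t → Fin k) F) = 1 from Units.ext tpow_one, one_mul]
      exact Units.ext (by ext x y; exact hσ x y)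
  | one =>
    refine ⟨1, 1, ?_⟩
    rw [show (tpowUnit 1 : GL (Fin t → Fin k) F) = 1 from Units.ext tpow_one, one_mul]
    exact Units.ext (by ext x y; simp [permUnit, permMat, Matrix.one_apply, eq_comm])
  | mul x y _ _ hx hy =>
    obtain ⟨c, σ, rfl⟩ := hx
    obtain ⟨d, τ, rfl⟩ := hy
    refine ⟨c * (d ∘ σ.symm), σ * τ, ?_⟩
    rw [htmul, hperm, mul_assoc, ← mul_assoc (permUnit σ), hswap]
    simp only [mul_assoc]
  | inv x _ hx =>
    obtain ⟨c, σ, rfl⟩ := hx
    refine ⟨c⁻¹ ∘ (σ⁻¹).symm, σ⁻¹, ?_⟩
    rw [_root_.mul_inv_rev, hinv, hpinv, hswap]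

end Cfsg.Agent.H9.Wreath
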