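import Cfsg.Agent.H9.WreathGap
import Cfsg.Agent.H2.Basis

/-!
Transfer of the non-maximality from the standard tensor coordinates to an arbitrary change of basis.
-/

set_option autoImplicit false

namespace Cfsg.Agent.H9.Wreath

open Matrix Cfsg.Agent.H99.Asch

variable {F : Type*} [Field F]

/-- A symplectic form has a basis in which its matrix is anti-diagonal, in characteristic two. -/
theorem exists_antiBasis {k : ℕ} (h2 : (2 : F) = 0) (f : (Fin k → F) → (Fin k → F) → F)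
    (hf : Cfsg.Geo.IsSymplecticForm f) :
    ∃ B : GL (Fin k) F, (B : Matrix (Fin k) (Fin k) F)ᵀ * Cfsg.Geo.gramMatrix f * B = antiJ k F ∧
      Even k := by
  classical
  let β : LinearMap.BilinForm F (Fin k → F) :=
    LinearMap.mk₂ F f hf.bilinear.add_left hf.bilinear.smul_left hf.bilinear.add_right hf.bilinear.smul_right
  have hA : β.IsAlt := fun v => hf.alternating v
  have hnd : β.Nondegenerate := by
    constructor
    · intro v hv
      by_contra h
      obtain ⟨x, hx⟩ := (hf.nondegenerate v h).2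
      exact hx (hv x)
    · intro v hv
      by_contra h
      obtain ⟨x, hx⟩ := (hf.nondegenerate v h).1
      exact hx (hv x)
  obtain ⟨m, b, h1, h2', h3⟩ := H2.exists_symplectic_basis β hnd hA
  have hk : k = m + m := by
    have := Module.finrank_eq_card_basis b
    simpa using this
  subst hk
  let σ : Fin (m + m) ≃ Fin m ⊕ Fin m :=
    finSumFinEquiv.symm.trans (Equiv.sumCongr (Equiv.refl _) Fin.revPerm)
  let b' := b.reindex σ.symm
  let M : Matrix (Fin (m + m)) (Fin (m + m)) F := (Pi.basisFun F (Fin (m + m))).toMatrix b'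
  have hM : IsUnit M := by
    rw [Matrix.isUnit_iff_isUnit_det]
    exact Matrix.isUnit_det_of_right_inverse (Module.Basis.toMatrix_mul_toMatrix_flip (Pi.basisFun F _) b')
  refine ⟨hM.unit, ?_, ⟨m, rfl⟩⟩
  ext i j
  have hsum : ((M)ᵀ * Cfsg.Geo.gramMatrix f * M) i j = β (b' i) (b' j) := by
    have hcol : ∀ l, b' l = ∑ a, M a l • Pi.single a (1 : F) := fun l => by
      funext a; simp [M, Module.Basis.toMatrix_apply, Finset.sum_apply, Pi.single_apply]
    rw [hcol i, hcol j]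
    simp only [map_sum, LinearMap.sum_apply, map_smul, LinearMap.smul_apply, smul_eq_mul]
    simp only [Matrix.mul_apply, Matrix.transpose_apply, Finset.sum_mul, Finset.mul_sum]
    refine Finset.sum_congr rfl fun a _ => Finset.sum_congr rfl fun c _ => ?_
    show _ = M a j * (M c i * f (Pi.single c 1) (Pi.single a 1))
    rw [Cfsg.Geo.gramMatrix]
    ring
  rw [show ((hM.unit : GL (Fin (m + m)) F) : Matrix _ _ F) = M from rfl, hsum]
  simp only [b', Module.Basis.reindex_apply, Equiv.symm_symm, antiJ_apply]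
  obtain ⟨x, rfl⟩ := σ.symm.surjective i
  obtain ⟨y, rfl⟩ := σ.symm.surjective j
  rw [Equiv.apply_symm_apply, Equiv.apply_symm_apply]
  have hl : ∀ a : Fin m, σ.symm (Sum.inl a) = Fin.castAdd m a := fun a => by simp [σ]
  have hr : ∀ a : Fin m, σ.symm (Sum.inr a) = (Fin.castAdd m a).rev := fun a => by
    simp [σ, Fin.ext_iff, Fin.val_rev]
    omega
  have hne : ∀ a c : Fin m, Fin.castAdd m a ≠ (Fin.castAdd m c).rev := fun a c => by
    simp [Fin.ext_iff, Fin.val_rev]
    omega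
  rcases x with a | a <;> rcases y with c | c <;> simp only [hl, hr, Fin.rev_rev]
  · rw [h2', if_neg (hne c a)]
  · rw [h1]
    exact if_congr ⟨fun e => by rw [e], fun e => (Fin.castAdd_injective m m (Fin.rev_injective e)).symm⟩ rfl rfl
  · rw [← hA.neg_eq, h1]
    by_cases e : c = a
    · subst e; simp only [if_true]; linear_combination -h2
    · rw [if_neg e, neg_zero, if_neg]
      exact fun e' => e (Fin.castAdd_injective m m e')
  · rw [h3, if_neg (fun e => (hne a c) e.symm)]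

/-- The transfer to an arbitrary frame. -/
theorem exists_between_frame {ι : Type} [Fintype ι] [DecidableEq ι] {k s : ℕ} [NeZero k]
    (L : Loc k (s + 2) F) (h2 : (2 : F) = 0) (Q : (ι → F) → F) (hsmul : ∀ (a : F) v, Q (a • v) = a ^ 2 * Q v)
    (f₁ : (Fin k → F) → (Fin k → F) → F) (B : GL (Fin k) F)
    (hB : (B : Matrix (Fin k) (Fin k) F)ᵀ * Cfsg.Geo.gramMatrix f₁ * B = antiJ k F)
    (e : ι ≃ (Fin (s + 2) → Fin k)) (P : GL ι F)
    (hT : Cfsg.Geo.IsTensorPowerFormStructure id (QuadraticMap.polar Q) f₁ e P)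
    (hpure : ∀ xs : Fin (s + 2) → (Fin k → F),
      Q (Matrix.mulVec (P : Matrix ι ι F) ((fun a : Fin (s + 2) → Fin k => ∏ i, xs i (a i)) ∘ e)) = 0) :
    ∃ K : Subgroup (GL ι F), Cfsg.Geo.tensorWreathSubgroup k (s + 2) e P ⊓ Cfsg.Geo.omegaGL Q < K ∧
      K < Cfsg.Geo.omegaGL Q := by
  classical
  obtain ⟨c, hc, hT⟩ := hT
  set N : GL (Fin (s + 2) → Fin k) F := tpowUnit fun _ => B with hN
  set Q' : ((Fin (s + 2) → Fin k) → F) → F :=
    fun x => Q ((P : Matrix ι ι F) *ᵥ (((N : Matrix _ _ F) *ᵥ x) ∘ e)) with hQ'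
  have hlin_add : ∀ x y : (Fin (s + 2) → Fin k) → F, (P : Matrix ι ι F) *ᵥ (((N : Matrix _ _ F) *ᵥ (x + y)) ∘ e) =
      (P : Matrix ι ι F) *ᵥ (((N : Matrix _ _ F) *ᵥ x) ∘ e) + (P : Matrix ι ι F) *ᵥ (((N : Matrix _ _ F) *ᵥ y) ∘ e) :=
    fun x y => (congrArg (fun z => (P : Matrix ι ι F) *ᵥ (z ∘ e)) (Matrix.mulVec_add _ x y)).trans
      (Matrix.mulVec_add (P : Matrix ι ι F) _ _)
  have H : Quad Q' c := by
    refine ⟨h2, hc, fun a x => ?_, fun x y => ?_, fun a => ?_⟩
    · show Q _ = a ^ 2 * Q _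
      rw [← hsmul, Matrix.mulVec_smul]
      exact congrArg Q (Matrix.mulVec_smul (P : Matrix ι ι F) a _)
    · show QuadraticMap.polar Q' x y = _
      have e1 : QuadraticMap.polar Q' x y = QuadraticMap.polar Q
          ((P : Matrix ι ι F) *ᵥ (((N : Matrix _ _ F) *ᵥ x) ∘ e))
          ((P : Matrix ι ι F) *ᵥ (((N : Matrix _ _ F) *ᵥ y) ∘ e)) := by
        simp only [QuadraticMap.polar, hQ', hlin_add]
      rw [e1, hT]
      congr 1
      have hG : (N : Matrix (Fin (s + 2) → Fin k) (Fin (s + 2) → Fin k) F)ᵀ *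
          tpow (fun _ => Cfsg.Geo.gramMatrix f₁) * (N : Matrix _ _ F) = gram k (s + 2) F := by
        show (tpow fun _ => (B : Matrix (Fin k) (Fin k) F))ᵀ * _ * (tpow fun _ => (B : Matrix (Fin k) (Fin k) F)) = _
        rw [tpow_transpose, ← tpow_mul, ← tpow_mul, gram]
        congr 1
        funext i
        exact hB
      rw [← hG, ← Matrix.mulVec_mulVec, ← Matrix.mulVec_mulVec, Matrix.dotProduct_mulVec x,
        Matrix.vecMul_transpose]
      simp only [dotProduct, Matrix.mulVec, id_eq, tpow_apply, Finset.mul_sum, mul_assoc]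
    · show Q _ = 0
      convert hpure (fun i r => (B : Matrix (Fin k) (Fin k) F) r (a i)) using 4
      rw [Matrix.mulVec_single_one]
      funext b
      rfl
  set Φ : GL (Fin (s + 2) → Fin k) F →* GL ι F :=
    (MulAut.conj (P * Cfsg.Geo.glReindex e.symm N)).toMonoidHom.comp
      (Cfsg.Geo.glReindex e.symm).toMonoidHom with hΦ
  have hΦinj : Function.Injective Φ :=
    (MulAut.conj (P * Cfsg.Geo.glReindex e.symm N)).injective.comp (Cfsg.Geo.glReindex e.symm).injective
  have hre : ∀ (g : GL (Fin (s + 2) → Fin k) F) (x : (Fin (s + 2) → Fin k) → F),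
      ((Cfsg.Geo.glReindex e.symm g : GL ι F) : Matrix ι ι F) *ᵥ (x ∘ e) =
        ((g : Matrix _ _ F) *ᵥ x) ∘ e := by
    intro g x
    funext i
    exact Equiv.sum_comp e fun b => (g : Matrix _ _ F) (e i) b * x b
  set P' : GL ι F := P * Cfsg.Geo.glReindex e.symm N with hP'
  have hP'v : ∀ x : (Fin (s + 2) → Fin k) → F, (P : Matrix ι ι F) *ᵥ (((N : Matrix _ _ F) *ᵥ x) ∘ e) =
      (P' : Matrix ι ι F) *ᵥ (x ∘ e) := fun x => by
    rw [hP', Units.val_mul, ← Matrix.mulVec_mulVec, hre]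
  have hact : ∀ g x, (Φ g : Matrix ι ι F) *ᵥ ((P' : Matrix ι ι F) *ᵥ (x ∘ e)) =
      (P' : Matrix ι ι F) *ᵥ (((g : Matrix _ _ F) *ᵥ x) ∘ e) := fun g x => by
    rw [← hre, Matrix.mulVec_mulVec, Matrix.mulVec_mulVec]
    congr 1
    show ((P' * Cfsg.Geo.glReindex e.symm g * P'⁻¹ : GL ι F) : Matrix ι ι F) * P' = _
    rw [← Units.val_mul, inv_mul_cancel_right, Units.val_mul]
  have hiso : (Cfsg.isometryGroup F Q').map Φ = Cfsg.isometryGroup F Q := by
    apply le_antisymm
    · rintro _ ⟨g, hg, rfl⟩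
      refine mem_iso_of _ fun y => ?_
      obtain ⟨x, rfl⟩ : ∃ x, (P' : Matrix ι ι F) *ᵥ (x ∘ e) = y :=
        ⟨(((P'⁻¹ : GL ι F) : Matrix ι ι F) *ᵥ y) ∘ e.symm, by
          rw [Function.comp_assoc, Equiv.symm_comp_self, Function.comp_id, Matrix.mulVec_mulVec,
            Units.mul_inv, Matrix.one_mulVec]⟩
      rw [hact, ← hP'v, ← hP'v]
      exact hg x x
    · intro h hh
      obtain ⟨g, hg⟩ : ∃ g, Φ g = h :=
        ⟨(Cfsg.Geo.glReindex e.symm).symm (P'⁻¹ * h * P'), by simp [hΦ, hP', mul_assoc]⟩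
      refine ⟨g, mem_iso_of g fun x => ?_, hg⟩
      show Q _ = Q _
      rw [hP'v, hP'v, ← hact, hg]
      exact hh _ ((P' : Matrix ι ι F) *ᵥ (x ∘ e))
  have homega : (Cfsg.Geo.omegaGL Q').map Φ = Cfsg.Geo.omegaGL Q := by
    rw [omegaGL_eq, omegaGL_eq, Subgroup.map_commutator, hiso]
  have hstd : (Cfsg.Geo.tensorWreathStandard k (s + 2) F).map Φ =
      Cfsg.Geo.tensorWreathSubgroup k (s + 2) e P := by
    have hNm : N ∈ Cfsg.Geo.tensorWreathStandard k (s + 2) F := tpowUnit_mem _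
    have key : ∀ g, Φ g = (MulAut.conj P) (Cfsg.Geo.glReindex e.symm (N * g * N⁻¹)) := fun g => by
      simp [hΦ, hP', map_mul, map_inv, mul_assoc]
    rw [Cfsg.Geo.tensorWreathSubgroup, Subgroup.map_map]
    apply le_antisymm
    · rintro _ ⟨g, hg, rfl⟩
      exact ⟨N * g * N⁻¹, mul_mem (mul_mem hNm hg) (inv_mem hNm), (key g).symm⟩
    · rintro _ ⟨g, hg, rfl⟩
      exact ⟨N⁻¹ * g * N, mul_mem (mul_mem (inv_mem hNm) hg) hNm, by rw [key]; simp [mul_assoc]⟩
  obtain ⟨K, hK1, hK2⟩ := exists_between L H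
  refine ⟨K.map Φ, ?_, ?_⟩
  · rw [← hstd, ← homega, ← Subgroup.map_inf _ _ _ hΦinj]
    exact (Subgroup.map_lt_map_iff_of_injective hΦinj).2 hK1
  · rw [← homega]
    exact (Subgroup.map_lt_map_iff_of_injective hΦinj).2 hK2

end Cfsg.Agent.H9.Wreath
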